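import Mathlib

set_option autoImplicit false

namespace Cfsg.Agent.Suz2

/-- A biadditive alternating map on a finite field of characteristic two which is homogeneous of
degree one for the diagonal scalar action is zero. -/
theorem alt_equivariant_zero {F : Type*} [Field F] [Finite F] [CharP F 2] (B : F → F → F)
    (hl : ∀ x y z, B (x + y) z = B x z + B y z) (hr : ∀ x y z, B x (y + z) = B x y + B x z)
    (heq : ∀ a x y, a ≠ 0 → B (a * x) (a * y) = a * B x y) (halt : ∀ x, B x x = 0) :
    ∀ x y, B x y = 0 := by
  have hsym : ∀ x y, B x y = B y x := by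
    intro x y
    have := halt (x + y)
    rw [hl, hr, hr, halt, halt, zero_add, add_zero] at this
    exact CharTwo.add_eq_zero.mp this
  have h0r : ∀ x, B x 0 = 0 := by
    intro x
    have := hr x 0 0
    rw [add_zero] at this
    exact left_eq_add.mp this
  have h0l : ∀ y, B 0 y = 0 := fun y => by rw [hsym, h0r]
  set f : F → F := fun t => B 1 t with hf
  have hadd : ∀ s t, f (s + t) = f s + f t := fun s t => hr 1 s t
  have hf1 : f 1 = 0 := halt 1
  have hinv : ∀ t, t ≠ 0 → f (1 / t) = f t / t := by
    intro t ht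
    have h1 : B t 1 = t * B 1 (1 / t) := by
      rw [← heq t 1 (1 / t) ht, mul_one, mul_one_div, div_self ht]
    have : f t = t * f (1 / t) := by
      show B 1 t = _
      rw [hsym, h1]
    rw [this, mul_div_cancel_left₀ _ ht]
  have hsq : ∀ t, f (t ^ 2) = 0 := by
    intro t
    by_cases ht : t = 0
    · subst ht; simp [hf, h0r]
    by_cases ht1 : t = 1
    · subst ht1; simp [hf1]
    have h2 : (1 : F) + 1 = 0 := CharTwo.add_self_eq_zero 1
    have ht' : 1 + t ≠ 0 := by
      intro h
      exact ht1 (CharTwo.add_eq_zero.mp h).symm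
    have hu : (1 / t + 1 / (1 + t)) = 1 / (t * (1 + t)) := by
      field_simp
      linear_combination t * h2
    have e1 := hadd (1 / t) (1 / (1 + t))
    rw [hu, hinv _ (mul_ne_zero ht ht'), hinv _ ht, hinv _ ht', hadd 1 t, hf1, zero_add] at e1
    have e2 : f (t * (1 + t)) = f t * ((1 + t) + t) := by
      field_simp at e1
      linear_combination e1
    have e3 : (1 + t) + t = 1 := by linear_combination t * h2
    rw [e3, mul_one, mul_add, mul_one, hadd, ← pow_two] at e2
    exact left_eq_add.mp e2.symm
  have hz : ∀ t, f t = 0 := by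
    intro t
    obtain ⟨r, hr'⟩ := (PerfectRing.bijective_frobenius (R := F) (p := 2)).2 t
    rw [← hr']
    exact hsq r
  intro x y
  by_cases hx : x = 0
  · rw [hx, h0l]
  · have := heq x 1 (y / x) hx
    rw [mul_one, mul_div_cancel₀ _ hx] at this
    rw [this, show B 1 (y / x) = 0 from hz _, mul_zero]

/-- A commutative group of automorphisms regular on the non-identity elements of an elementary abelian
2-group turns it into the additive group of a field. -/
theorem exists_field {V : Type*} [CommGroup V] [Finite V] (h2 : ∀ v : V, v * v = 1)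
    {K : Type*} [CommGroup K] [MulDistribMulAction K V] (v0 : V) (hv0 : v0 ≠ 1)
    (hreg : ∀ v : V, v ≠ 1 → ∃! k : K, k • v0 = v) :
    ∃ (F : Type) (_ : Field F) (_ : Fintype F) (_ : CharP F 2) (e : F ≃ V) (χ : K →* F),
      (∀ a b, e (a + b) = e a * e b) ∧ e 1 = v0 ∧ (∀ k a, e (χ k * a) = k • e a) ∧
      (∀ a, a ≠ 0 → ∃ k, χ k = a) := by
  classical
  set act : K →* AddMonoid.End (Additive V) :=
    { toFun := fun k => MonoidHom.toAdditive (MulDistribMulAction.toMonoidHom V k)
      map_one' := by ext x; show Additive.ofMul ((1 : K) • x.toMul) = x; rw [one_smul]; rfl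
      map_mul' := fun a b => by
        ext x
        show Additive.ofMul ((a * b) • x.toMul) = Additive.ofMul (a • b • x.toMul)
        rw [mul_smul] } with hact
  set E : Subring (AddMonoid.End (Additive V)) := Subring.centralizer (Set.range act) with hE
  have happ : ∀ (k : K) (v : V), act k (Additive.ofMul v) = Additive.ofMul (k • v) := fun k v => rfl
  have hmem : ∀ k, act k ∈ E := by
    intro k
    rw [hE, Subring.mem_centralizer_iff]
    rintro g ⟨l, rfl⟩
    rw [← map_mul, ← map_mul, mul_comm]
  set ev : E → V := fun f => ((f : AddMonoid.End (Additive V)) (Additive.ofMul v0)).toMul with hev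
  have hevk : ∀ (f : E) (k : K), k • ev f =
      ((f : AddMonoid.End (Additive V)) (Additive.ofMul (k • v0))).toMul := by
    intro f k
    have hf := Subring.mem_centralizer_iff.mp f.2
    have := congrArg (fun g : AddMonoid.End (Additive V) => g (Additive.ofMul v0))
      (hf (act k) ⟨k, rfl⟩)
    exact congrArg Additive.toMul this
  have hinj : Function.Injective ev := by
    intro f g hfg
    apply Subtype.ext
    refine AddMonoidHom.ext fun x => ?_
    by_cases hx : Additive.toMul x = 1
    · have : x = 0 := hx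
      subst this
      exact (map_zero (f : AddMonoid.End (Additive V))).trans (map_zero (g : AddMonoid.End (Additive V))).symm
    · obtain ⟨k, hk, -⟩ := hreg _ hx
      have hk' : Additive.ofMul (k • v0) = x := by rw [hk]; rfl
      have h1 := hevk f k
      rw [hfg, hevk g k, hk'] at h1
      exact Additive.toMul.injective h1.symm
  have hevact : ∀ k, ev ⟨act k, hmem k⟩ = k • v0 := fun k => rfl
  have hsurj : Function.Surjective ev := by
    intro v
    by_cases hv : v = 1
    · exact ⟨0, hv.symm⟩
    · obtain ⟨k, hk, -⟩ := hreg v hv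
      exact ⟨⟨act k, hmem k⟩, (hevact k).trans hk⟩
  set eV : E ≃ V := Equiv.ofBijective ev ⟨hinj, hsurj⟩ with heV
  have hunit : ∀ f : E, f ≠ 0 → ∃ k, f = ⟨act k, hmem k⟩ := by
    intro f hf
    have hv : ev f ≠ 1 := fun h => hf (hinj (h.trans (show (1 : V) = ev 0 from rfl)))
    obtain ⟨k, hk, -⟩ := hreg _ hv
    exact ⟨k, hinj (hk.symm.trans (hevact k).symm)⟩
  have hfield : IsField E := by
    refine ⟨⟨0, 1, fun h => hv0 ?_⟩, ?_, ?_⟩
    · exact (congrArg ev h).symm
    · intro a b
      by_cases ha : a = 0
      · rw [ha, zero_mul, mul_zero]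
      obtain ⟨k, rfl⟩ := hunit a ha
      apply Subtype.ext
      have hb := Subring.mem_centralizer_iff.mp b.2
      exact hb (act k) ⟨k, rfl⟩
    · intro a ha
      obtain ⟨k, rfl⟩ := hunit a ha
      refine ⟨⟨act k⁻¹, hmem _⟩, Subtype.ext ?_⟩
      show act k * act k⁻¹ = 1
      rw [← map_mul, mul_inv_cancel, map_one]
  have : Finite E := Finite.of_equiv V eV.symm
  letI : Field E := hfield.toField
  have : Small.{0} E := Countable.toSmall E
  let ρ : Shrink.{0} E ≃+* E := Shrink.ringEquiv E
  set e : (Shrink.{0} E) ≃ V := ρ.toEquiv.trans eV with he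
  have hadd : ∀ a b, e (a + b) = e a * e b := by
    intro a b
    show ev (ρ (a + b)) = ev (ρ a) * ev (ρ b)
    rw [map_add]; rfl
  have he1 : e 1 = v0 := by
    show ev (ρ 1) = v0
    rw [map_one]; rfl
  have h11 : (1 : (Shrink.{0} E)) + 1 = 0 := by
    apply e.injective
    rw [hadd, he1, h2]
    show (1 : V) = ev (ρ 0)
    rw [map_zero]; rfl
  have hchar : CharP ((Shrink.{0} E)) 2 := CharTwo.of_one_ne_zero_of_two_eq_zero one_ne_zero
    (by rw [← one_add_one_eq_two]; exact h11)
  refine ⟨(Shrink.{0} E), inferInstance, Fintype.ofFinite _, hchar, e,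
    { toFun := fun k => ρ.symm ⟨act k, hmem k⟩
      map_one' := by rw [← map_one ρ.symm]; congr 1; exact Subtype.ext (map_one act)
      map_mul' := fun a b => by rw [← map_mul ρ.symm]; congr 1; exact Subtype.ext (map_mul act a b) },
    hadd, he1, ?_, ?_⟩
  · intro k a
    show ev (ρ (ρ.symm ⟨act k, hmem k⟩ * a)) = k • ev (ρ a)
    rw [map_mul, RingEquiv.apply_symm_apply]
    rfl
  · intro a ha
    obtain ⟨k, hk⟩ := hunit (ρ a) (fun h => ha (ρ.injective (by rw [h, map_zero])))
    exact ⟨k, by show ρ.symm ⟨act k, hmem k⟩ = a; rw [← hk, RingEquiv.symm_apply_apply]⟩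

end Cfsg.Agent.Suz2
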