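import Mathlib
import Cfsg.Agent.Lib.Suz2.Field
import Cfsg.Prelude.Def_LieRecognition

set_option autoImplicit false

namespace Cfsg.Agent.Suz2

universe u

/-- Two homomorphism-like quotients onto one regular module: an alternating equivariant pairing
vanishes. -/
theorem pairing_eq_one {P : Type u} [Group P] {W : Type*} [CommGroup W] [Finite W]
    (h2 : ∀ w : W, w * w = 1) {K : Type*} [CommGroup K] [MulDistribMulAction K W]
    (w0 : W) (hw0 : w0 ≠ 1) (hreg : ∀ w : W, w ≠ 1 → ∃! k : K, k • w0 = w)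
    (act : K → P → P)
    (S T : Subgroup P) (φ ψ : P → W) (D : P → P → W)
    (hφ : ∀ x ∈ S, ∀ y ∈ S, φ (x * y) = φ x * φ y) (hφs : ∀ w, ∃ x ∈ S, φ x = w)
    (hψ : ∀ x ∈ T, ∀ y ∈ T, ψ (x * y) = ψ x * ψ y) (hψs : ∀ w, ∃ x ∈ T, ψ x = w)
    (hDl : ∀ x ∈ S, ∀ y ∈ S, ∀ a ∈ T, D (x * y) a = D x a * D y a)
    (hDr : ∀ x ∈ S, ∀ a ∈ T, ∀ b ∈ T, D x (a * b) = D x a * D x b)
    (hDwd : ∀ x ∈ S, ∀ y ∈ S, ∀ a ∈ T, ∀ b ∈ T, φ x = φ y → ψ a = ψ b → D x a = D y b)
    (hDk : ∀ k : K, ∀ x ∈ S, ∀ a ∈ T, act k x ∈ S ∧ act k a ∈ T ∧ φ (act k x) = k • φ x ∧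
      ψ (act k a) = k • ψ a ∧ D (act k x) (act k a) = k • D x a)
    (hDd : ∀ w, ∃ x ∈ S, ∃ a ∈ T, φ x = w ∧ ψ a = w ∧ D x a = 1) :
    ∀ x ∈ S, ∀ a ∈ T, D x a = 1 := by
  obtain ⟨F, _, _, _, e, χ, hadd, he1, heχ, hsurj⟩ := exists_field h2 w0 hw0 hreg
  choose sφ hsφS hsφ using hφs
  choose sψ hsψT hsψ using hψs
  set B : F → F → F := fun u v => e.symm (D (sφ (e u)) (sψ (e v))) with hB
  have hz := alt_equivariant_zero B ?_ ?_ ?_ ?_
  · intro x hx a ha
    have h0 : e 0 = 1 := by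
      have := hadd 0 0
      rw [add_zero] at this
      exact left_eq_mul.mp this
    have h := hz (e.symm (φ x)) (e.symm (ψ a))
    simp only [hB, Equiv.apply_symm_apply] at h
    have h' := congrArg e h
    rw [Equiv.apply_symm_apply, h0] at h'
    rw [← h']
    exact hDwd x hx _ (hsφS _) a ha _ (hsψT _) (hsφ _).symm (hsψ _).symm
  · intro u v w
    apply e.injective
    simp only [hB, hadd, Equiv.apply_symm_apply]
    rw [← hDl _ (hsφS _) _ (hsφS _) _ (hsψT _)]
    refine hDwd _ (hsφS _) _ (S.mul_mem (hsφS _) (hsφS _)) _ (hsψT _) _ (hsψT _) ?_ rfl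
    rw [hsφ, hφ _ (hsφS _) _ (hsφS _), hsφ, hsφ]
  · intro u v w
    apply e.injective
    simp only [hB, hadd, Equiv.apply_symm_apply]
    rw [← hDr _ (hsφS _) _ (hsψT _) _ (hsψT _)]
    refine hDwd _ (hsφS _) _ (hsφS _) _ (hsψT _) _ (T.mul_mem (hsψT _) (hsψT _)) rfl ?_
    rw [hsψ, hψ _ (hsψT _) _ (hsψT _), hsψ, hsψ]
  · intro a u v ha
    obtain ⟨k, hk⟩ := hsurj a ha
    apply e.injective
    simp only [hB, ← hk, heχ, Equiv.apply_symm_apply]
    obtain ⟨h1, h1', h3, h4, h5⟩ := hDk k _ (hsφS (e u)) _ (hsψT (e v))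
    rw [← h5]
    refine hDwd _ (hsφS _) _ h1 _ (hsψT _) _ h1' ?_ ?_
    · rw [h3, hsφ, hsφ]
    · rw [h4, hsψ, hsψ]
  · intro u
    obtain ⟨x, hx, a, ha, h1, h1', h3⟩ := hDd (e u)
    apply e.injective
    have h0 : e 0 = 1 := by
      have := hadd 0 0
      rw [add_zero] at this
      exact left_eq_mul.mp this
    simp only [hB, Equiv.apply_symm_apply, h0]
    rw [← h3]
    exact hDwd _ (hsφS _) x hx _ (hsψT _) a ha (by rw [hsφ, h1]) (by rw [hsψ, h1'])

variable {P : Type u} [Group P]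

/-- The subgroup of central elements of order at most two. -/
def omegaCenter (P : Type u) [Group P] : Subgroup P where
  carrier := {x | x ∈ Subgroup.center P ∧ x * x = 1}
  one_mem' := ⟨one_mem _, mul_one 1⟩
  mul_mem' := by
    rintro a b ⟨ha, ha2⟩ ⟨hb, hb2⟩
    refine ⟨mul_mem ha hb, ?_⟩
    have hab : b * a = a * b := (Subgroup.mem_center_iff.mp ha b)
    calc a * b * (a * b) = a * (b * a) * b := by group
      _ = a * (a * b) * b := by rw [hab]
      _ = (a * a) * (b * b) := by group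
      _ = 1 := by rw [ha2, hb2, one_mul]
  inv_mem' := by
    rintro a ⟨ha, ha2⟩
    exact ⟨inv_mem ha, by rw [← mul_inv_rev, ha2, inv_one]⟩

theorem mem_omegaCenter {x : P} : x ∈ omegaCenter P ↔ x ∈ Subgroup.center P ∧ x * x = 1 := Iff.rfl

theorem map_mem_center (k : MulAut P) {x : P} (hx : x ∈ Subgroup.center P) :
    k x ∈ Subgroup.center P := by
  rw [Subgroup.mem_center_iff] at hx ⊢
  intro g
  have := congrArg k (hx (k.symm g))
  rwa [map_mul, map_mul, MulEquiv.apply_symm_apply] at this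

/-- What we use of a Suzuki 2-group: a commutative group of automorphisms regular on the involutions. -/
structure Data (P : Type u) [Group P] where
  /-- the group of automorphisms -/
  K : Subgroup (MulAut P)
  comm : ∀ a b : K, a * b = b * a
  regular : ∀ x y : P, x ≠ 1 → x * x = 1 → y ≠ 1 → y * y = 1 → ∃! k : K, (k : MulAut P) x = y
  z0 : P
  z0_ne : z0 ≠ 1
  z0_center : z0 ∈ Subgroup.center P
  z0_sq : z0 * z0 = 1

theorem exists_data (hP : Cfsg.IsSuzukiTwoGroup P) : Nonempty (Data P) := by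
  obtain ⟨hfin, hp, -, ⟨x, y, hxy, hx, -, -⟩, K, hK, hreg⟩ := hP
  have : Nontrivial P := ⟨⟨x, 1, hx⟩⟩
  have : Fact (Nat.Prime 2) := ⟨Nat.prime_two⟩
  have hc : Nontrivial (Subgroup.center P) := hp.center_nontrivial
  have hcp : IsPGroup 2 (Subgroup.center P) := hp.to_subgroup _
  have hdvd : 2 ∣ Nat.card (Subgroup.center P) := by
    obtain ⟨n, hn⟩ := IsPGroup.iff_card.mp hcp
    have h1 : 1 < Nat.card (Subgroup.center P) := Finite.one_lt_card
    rcases Nat.eq_zero_or_pos n with h0 | h0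
    · rw [hn, h0, pow_zero] at h1; omega
    · rw [hn]; exact dvd_pow_self 2 h0.ne'
  obtain ⟨z, hz⟩ := exists_prime_orderOf_dvd_card' 2 hdvd
  haveI := hK
  refine ⟨⟨K, fun a b => ?_, hreg, z, ?_, z.2, ?_⟩⟩
  · letI := IsCyclic.commGroup (α := K); exact mul_comm a b
  · intro h
    rw [show z = 1 from Subtype.ext h, orderOf_one] at hz
    omega
  · have := pow_orderOf_eq_one z
    rw [hz, pow_two] at this
    exact congrArg Subtype.val this

namespace Data

variable (d : Data P)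

instance : CommGroup d.K := { (inferInstance : Group d.K) with mul_comm := d.comm }

theorem map_omega (k : d.K) {x : P} (hx : x ∈ omegaCenter P) : (k : MulAut P) x ∈ omegaCenter P :=
  ⟨map_mem_center _ hx.1, by rw [← map_mul, hx.2, map_one]⟩

instance : MulDistribMulAction d.K (omegaCenter P) where
  smul k x := ⟨(k : MulAut P) x, d.map_omega k x.2⟩
  one_smul x := Subtype.ext rfl
  mul_smul a b x := Subtype.ext rfl
  smul_mul k x y := Subtype.ext (map_mul (k : MulAut P) (x : P) (y : P))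
  smul_one k := Subtype.ext (map_one (k : MulAut P))

theorem coe_smul (k : d.K) (x : omegaCenter P) :
    ((k • x : omegaCenter P) : P) = (k : MulAut P) x := rfl

theorem invol_mem_omega (d : Data P) {x : P} (hx : x * x = 1) : x ∈ omegaCenter P := by
  by_cases h : x = 1
  · subst h; exact one_mem _
  · obtain ⟨k, hk, -⟩ := d.regular d.z0 x d.z0_ne d.z0_sq h hx
    exact ⟨hk ▸ map_mem_center _ d.z0_center, hx⟩

/-- If some central element has a non-trivial square of order two, then so does every involution. -/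
theorem exists_map_eq {x w : P} (hx : x ≠ 1) (hx2 : x * x = 1) (hw : w ≠ 1) (hw2 : w * w = 1) :
    ∃ k : d.K, (k : MulAut P) x = w := (d.regular x w hx hx2 hw hw2).exists

end Data

variable [Finite P]

/-- The centre of a Suzuki 2-group is elementary abelian. -/
theorem center_sq_eq_one (hp : IsPGroup 2 P) (hna : ∃ x y : P, x * y ≠ y * x) (d : Data P) :
    ∀ z ∈ Subgroup.center P, z * z = 1 := by
  classical
  by_contra hcon
  push Not at hcon
  obtain ⟨z, hz, hz2⟩ := hcon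
  -- a central element of order 4
  obtain ⟨z4, hz4c, hz4ne, hz4⟩ : ∃ z4 : P, z4 ∈ Subgroup.center P ∧ z4 ^ 2 ≠ 1 ∧ z4 ^ 4 = 1 := by
    obtain ⟨n, hn⟩ := (IsPGroup.iff_orderOf.mp hp) z
    have h2n : 2 ≤ n := by
      by_contra h
      apply hz2
      have : z ^ (2 : ℕ) = 1 := orderOf_dvd_iff_pow_eq_one.mp (by
        rw [hn]; exact (pow_dvd_pow 2 (show n ≤ 1 by omega)).trans (by norm_num))
      rwa [pow_two] at this
    refine ⟨z ^ 2 ^ (n - 2), pow_mem hz _, ?_, ?_⟩
    · rw [← pow_mul, ← pow_succ]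
      apply pow_ne_one_of_lt_orderOf (by positivity)
      rw [hn]
      exact Nat.pow_lt_pow_right (by norm_num) (by omega)
    · rw [← pow_mul, show 2 ^ (n - 2) * 4 = 2 ^ n by
        rw [show (4 : ℕ) = 2 ^ 2 by norm_num, ← pow_add, Nat.sub_add_cancel h2n], ← hn,
        pow_orderOf_eq_one]
  have hz4sq : (z4 ^ 2) * (z4 ^ 2) = 1 := by rw [← pow_add]; exact hz4
  -- maximal abelian normal invariant subgroup containing the centre
  set good : Set (Subgroup P) := {A | Subgroup.center P ≤ A ∧ (∀ g : P, ∀ a ∈ A, g * a * g⁻¹ ∈ A) ∧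
    (∀ k : d.K, ∀ a ∈ A, (k : MulAut P) a ∈ A) ∧ ∀ a ∈ A, ∀ b ∈ A, a * b = b * a} with hgood
  have hne : good.Nonempty := by
    refine ⟨Subgroup.center P, le_rfl, ?_, fun k a ha => map_mem_center _ ha, ?_⟩
    · intro g a ha
      rw [Subgroup.mem_center_iff.mp ha g, mul_inv_cancel_right]
      exact ha
    · intro a ha b _
      exact (Subgroup.mem_center_iff.mp ha b).symm
  obtain ⟨A, ⟨hZA, hAn, hAk, hAc⟩, hAmax⟩ := (Set.toFinite good).exists_maximal hne
  have hAtop : A ≠ ⊤ := by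
    obtain ⟨x, y, hxy⟩ := hna
    exact fun h => hxy (hAc x (h ▸ Subgroup.mem_top x) y (h ▸ Subgroup.mem_top y))
  have hcomm : ∀ a ∈ A, ∀ b ∈ A, Commute a b := fun a ha b hb => hAc a ha b hb
  -- the exponent
  have hex : ∃ r, ∀ a ∈ A, a ^ 2 ^ r = 1 := by
    obtain ⟨N, hN⟩ := IsPGroup.iff_card.mp hp
    exact ⟨N, fun a _ => by rw [← hN]; exact pow_card_eq_one'⟩
  set r := Nat.find hex with hrdef
  have hr : ∀ a ∈ A, a ^ 2 ^ r = 1 := Nat.find_spec hex
  have hr2 : 2 ≤ r := by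
    by_contra h
    have h1 := hr z4 (hZA hz4c)
    have : r = 0 ∨ r = 1 := by omega
    rcases this with h' | h' <;> rw [h'] at h1 <;> norm_num at h1
    · exact hz4ne (by rw [h1, one_pow])
    · exact hz4ne h1
  have hF1 : ∀ w ∈ omegaCenter P, ∃ a ∈ A, a ^ 2 ^ (r - 1) = w := by
    intro w hw
    by_cases hw1 : w = 1
    · exact ⟨1, one_mem A, by rw [one_pow, hw1]⟩
    have := Nat.find_min hex (show r - 1 < r by omega)
    push Not at this
    obtain ⟨a, ha, ha1⟩ := this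
    have hsq : a ^ 2 ^ (r - 1) * a ^ 2 ^ (r - 1) = 1 := by
      rw [← pow_two, ← pow_mul, ← pow_succ, show r - 1 + 1 = r by omega, hr a ha]
    obtain ⟨k, hk⟩ := d.exists_map_eq ha1 hsq hw1 hw.2
    exact ⟨(k : MulAut P) a, hAk k a ha, by rw [← map_pow, hk]⟩
  have hF2 : ∀ j, j ≤ r → ∀ a ∈ A, a ^ 2 ^ j = 1 → ∃ c ∈ A, c ^ 2 ^ (r - j) = a := by
    intro j
    induction j with
    | zero => intro _ a _ h; exact ⟨1, one_mem A, by rw [one_pow]; rw [pow_zero, pow_one] at h; exact h.symm⟩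
    | succ j ih =>
      intro hj a ha h
      have hw : a ^ 2 ^ j ∈ omegaCenter P := d.invol_mem_omega (by
        rw [← pow_two, ← pow_mul, ← pow_succ]; exact h)
      obtain ⟨c, hc, hc'⟩ := hF1 _ hw
      set c' := c ^ 2 ^ (r - 1 - j) with hc'def
      have hc'A : c' ∈ A := pow_mem hc _
      have hc'j : c' ^ 2 ^ j = a ^ 2 ^ j := by
        rw [hc'def, ← pow_mul, ← pow_add, show r - 1 - j + j = r - 1 by omega, hc']
      obtain ⟨e, he, he'⟩ := ih (by omega) (a * c'⁻¹) (mul_mem ha (inv_mem hc'A)) (by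
        rw [(hcomm a ha _ (inv_mem hc'A)).mul_pow, inv_pow, hc'j, mul_inv_cancel])
      refine ⟨e ^ 2 * c, mul_mem (pow_mem he 2) hc, ?_⟩
      rw [(hcomm _ (pow_mem he 2) c hc).mul_pow, ← pow_mul, ← pow_succ', show r - (j + 1) + 1 = r - j by omega,
        he', show r - (j + 1) = r - 1 - j by omega, ← hc'def, inv_mul_cancel_right]
  have hsqZ : ∀ w ∈ omegaCenter P, ∃ c ∈ Subgroup.center P, c ^ 2 = w := by
    intro w hw
    by_cases hw1 : w = 1
    · exact ⟨1, one_mem _, by rw [one_pow, hw1]⟩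
    obtain ⟨k, hk⟩ := d.exists_map_eq hz4ne hz4sq hw1 hw.2
    exact ⟨(k : MulAut P) z4, map_mem_center _ hz4c, by rw [← map_pow, hk]⟩
  have hfour : ∀ a ∈ A, a ^ 4 = 1 → a ∈ Subgroup.center P := by
    intro a ha h4
    obtain ⟨c, hc, hc2⟩ := hsqZ (a ^ 2) (d.invol_mem_omega (by rw [← pow_add]; exact h4))
    have : a * c⁻¹ ∈ omegaCenter P := d.invol_mem_omega (by
      rw [← pow_two, (hcomm a ha _ (inv_mem (hZA hc))).mul_pow, inv_pow, hc2, mul_inv_cancel])
    have := mul_mem this.1 hc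
    rwa [inv_mul_cancel_right] at this
  -- the elements acting trivially on P/A and squaring into A
  haveI hAnorm : A.Normal := ⟨fun a ha g => hAn g a ha⟩
  set X : Subgroup P := Subgroup.comap (QuotientGroup.mk' A) (omegaCenter (P ⧸ A)) with hXdef
  have hX : ∀ x, x ∈ X ↔ (∀ g : P, g * x * g⁻¹ * x⁻¹ ∈ A) ∧ x * x ∈ A := by
    intro x
    rw [hXdef, Subgroup.mem_comap, mem_omegaCenter, ← map_mul, Subgroup.mem_center_iff]
    refine and_congr ⟨fun h g => ?_, fun h g => ?_⟩ (QuotientGroup.eq_one_iff _)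
    · rw [← QuotientGroup.eq_one_iff]
      show QuotientGroup.mk' A (g * x * g⁻¹ * x⁻¹) = 1
      rw [map_mul, map_mul, map_mul, h (QuotientGroup.mk' A g), map_inv, map_inv,
        mul_inv_cancel_right, mul_inv_cancel]
    · induction g using QuotientGroup.induction_on with
      | H g =>
        have := (QuotientGroup.eq_one_iff _).mpr (h g)
        rw [← QuotientGroup.mk'_apply, map_mul, map_mul, map_mul, map_inv, map_inv, mul_inv_eq_one,
          mul_inv_eq_iff_eq_mul] at this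
        exact this
  have hAX : A ≤ X := by
    intro a ha
    rw [hX]
    exact ⟨fun g => mul_mem (hAn g a ha) (inv_mem ha), mul_mem ha ha⟩
  have hXk : ∀ k : d.K, ∀ x ∈ X, (k : MulAut P) x ∈ X := by
    intro k x hx
    rw [hX] at hx ⊢
    refine ⟨fun g => ?_, by rw [← map_mul]; exact hAk k _ hx.2⟩
    have := hAk k _ (hx.1 ((k : MulAut P).symm g))
    rwa [map_mul, map_mul, map_mul, map_inv, map_inv, MulEquiv.apply_symm_apply] at this
  obtain ⟨x1, hx1X, hx1A⟩ : ∃ x1 ∈ X, x1 ∉ A := by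
    have hQp : IsPGroup 2 (P ⧸ A) := hp.to_quotient A
    have hQnt : Nontrivial (P ⧸ A) := QuotientGroup.nontrivial_iff.mpr hAtop
    have : Fact (Nat.Prime 2) := ⟨Nat.prime_two⟩
    have hc : Nontrivial (Subgroup.center (P ⧸ A)) := hQp.center_nontrivial
    obtain ⟨n, hn⟩ := IsPGroup.iff_card.mp (hQp.to_subgroup (Subgroup.center (P ⧸ A)))
    have h1 : 1 < Nat.card (Subgroup.center (P ⧸ A)) := Finite.one_lt_card
    have hdvd : 2 ∣ Nat.card (Subgroup.center (P ⧸ A)) := by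
      rcases Nat.eq_zero_or_pos n with h0 | h0
      · rw [hn, h0, pow_zero] at h1; omega
      · rw [hn]; exact dvd_pow_self 2 h0.ne'
    obtain ⟨⟨q, hq⟩, hord⟩ := exists_prime_orderOf_dvd_card' 2 hdvd
    obtain ⟨x1, rfl⟩ := QuotientGroup.mk'_surjective A q
    rw [← Subgroup.orderOf_coe] at hord
    refine ⟨x1, ⟨hq, ?_⟩, fun h => ?_⟩
    · rw [← pow_two, ← hord]; exact pow_orderOf_eq_one _
    · simp only at hord
      rw [show QuotientGroup.mk' A x1 = 1 from (QuotientGroup.eq_one_iff x1).mpr h, orderOf_one] at hord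
      omega
  -- D x a is the commutator
  set D : P → P → P := fun x a => x * a * x⁻¹ * a⁻¹ with hD
  have hDA : ∀ x, ∀ a ∈ A, D x a ∈ A := fun x a ha => mul_mem (hAn x a ha) (inv_mem ha)
  have hDhom : ∀ x, ∀ a ∈ A, ∀ b ∈ A, D x (a * b) = D x a * D x b := by
    intro x a ha b hb
    have h1 : D x (a * b) = (x * a * x⁻¹) * ((D x b) * a⁻¹) := by simp only [hD]; group
    rw [h1, (hcomm _ (hDA x b hb) _ (inv_mem ha)).eq]
    simp only [hD]; group
  have hDinv : ∀ x, ∀ a ∈ A, D x a⁻¹ = (D x a)⁻¹ := by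
    intro x a ha
    apply eq_inv_of_mul_eq_one_right
    rw [← hDhom x a ha _ (inv_mem ha), mul_inv_cancel]
    simp [hD]
  have hDpow : ∀ x, ∀ a ∈ A, ∀ n : ℕ, D x (a ^ n) = D x a ^ n := by
    intro x a ha n
    induction n with
    | zero => simp [hD]
    | succ n ih => rw [pow_succ, pow_succ, hDhom x _ (pow_mem ha n) a ha, ih]
  have hDc : ∀ x, ∀ a ∈ Subgroup.center P, D x a = 1 := by
    intro x a ha
    show x * a * x⁻¹ * a⁻¹ = 1
    rw [Subgroup.mem_center_iff.mp ha x, mul_inv_cancel_right, mul_inv_cancel]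
  have hDD : ∀ x ∈ X, ∀ a ∈ A, D x (D x a) = ((D x a) ^ 2)⁻¹ := by
    intro x hx a ha
    have hb := ((hX x).mp hx).2
    have hxa := hAn x a ha
    have h1 : D x (x * a * x⁻¹) = (D x a)⁻¹ := by
      have e : x * (x * a * x⁻¹) * x⁻¹ = (x * x) * a * (x * x)⁻¹ := by group
      show x * (x * a * x⁻¹) * x⁻¹ * (x * a * x⁻¹)⁻¹ = (D x a)⁻¹
      rw [e, (hcomm _ hb a ha).eq, mul_inv_cancel_right]
      simp only [hD]; group
    have h2 : D x (x * a * x⁻¹) = D x (D x a) * D x a := by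
      rw [← hDhom x _ (hDA x a ha) a ha]
      congr 1
      simp only [hD]; group
    rw [h1] at h2
    rw [pow_two, mul_inv_rev, eq_comm]
    calc (D x a)⁻¹ * (D x a)⁻¹ = D x (D x a) * D x a * (D x a)⁻¹ := by rw [← h2]
      _ = D x (D x a) := mul_inv_cancel_right _ _
  -- commutators with A have order at most two
  have hkey1 : ∀ x ∈ X, ∀ a ∈ A, D x a ∈ omegaCenter P := by
    intro x hx
    have base : ∀ a ∈ A, (D x a) ^ 2 ^ (r - 2) = 1 := by
      intro a ha
      rw [← hDpow x a ha]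
      refine hDc x _ (hfour _ (pow_mem ha _) ?_)
      rw [← pow_mul, show 2 ^ (r - 2) * 4 = 2 ^ r by
        rw [show (4 : ℕ) = 2 ^ 2 by norm_num, ← pow_add, Nat.sub_add_cancel hr2], hr a ha]
    by_cases hr3 : r = 2
    · intro a ha
      have := base a ha
      rw [hr3, Nat.sub_self, pow_zero, pow_one] at this
      rw [this]; exact one_mem _
    have main : ∀ j, 2 ≤ j → j ≤ r - 1 → ∀ a ∈ A, ∃ e ∈ A, e ^ 2 ^ j = D x a := by
      intro j hj
      induction j, hj using Nat.le_induction with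
      | base =>
        intro _ a ha
        obtain ⟨c, hc, hc'⟩ := hF2 (r - 2) (by omega) _ (hDA x a ha) (base a ha)
        exact ⟨c, hc, by rw [← hc', show r - (r - 2) = 2 by omega]⟩
      | succ j hj ih =>
        intro hj1 a ha
        obtain ⟨e, he, he'⟩ := ih (by omega) a ha
        obtain ⟨f, hf, hf'⟩ := ih (by omega) e he
        have h := hDD x hx a ha
        rw [← he', hDpow x e he, ← hf', ← pow_mul, ← pow_mul] at h
        set f' := f ^ 2 ^ (2 * j - 1) with hf'def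
        have hf'A : f' ∈ A := pow_mem hf _
        have hsq : f' ^ 2 = f ^ (2 ^ j * 2 ^ j) := by
          rw [hf'def, ← pow_mul, ← pow_succ, ← pow_add, show 2 * j - 1 + 1 = j + j by omega]
        obtain ⟨g, hg, hg'⟩ := hF1 (D x a * f') (d.invol_mem_omega (by
          rw [← pow_two, (hcomm _ (hDA x a ha) _ hf'A).mul_pow, hsq, h, ← he', ← pow_mul, mul_inv_cancel]))
        refine ⟨g ^ 2 ^ (r - 1 - (j + 1)) * (f ^ 2 ^ (2 * j - 1 - (j + 1)))⁻¹,
          mul_mem (pow_mem hg _) (inv_mem (pow_mem hf _)), ?_⟩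
        rw [(hcomm _ (pow_mem hg _) _ (inv_mem (pow_mem hf _))).mul_pow, inv_pow, ← pow_mul, ← pow_add,
          ← pow_mul, ← pow_add, Nat.sub_add_cancel hj1, Nat.sub_add_cancel (by omega : j + 1 ≤ 2 * j - 1),
          hg', ← hf'def, mul_inv_cancel_right]
    intro a ha
    obtain ⟨e, he, he'⟩ := main (r - 1) (by omega) le_rfl a ha
    apply d.invol_mem_omega
    rw [← he', ← pow_two, ← pow_mul, ← pow_succ, show r - 1 + 1 = r by omega, hr e he]
  have hom_sq : ∀ w ∈ omegaCenter P, w ^ 2 = 1 := fun w hw => by rw [pow_two]; exact hw.2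
  have hDsq : ∀ x ∈ X, ∀ a ∈ A, D x (a ^ 2) = 1 := by
    intro x hx a ha
    rw [hDpow x a ha, hom_sq _ (hkey1 x hx a ha)]
  have hom_top : ∀ w ∈ omegaCenter P, ∃ g ∈ A, (g ^ 2 ^ (r - 2)) ^ 2 = w := by
    intro w hw
    obtain ⟨g, hg, hg'⟩ := hF1 w hw
    exact ⟨g, hg, by rw [← pow_mul, ← pow_succ, show r - 2 + 1 = r - 1 by omega, hg']⟩
  -- squares of elements of X \ A are non-squares in A
  have hkey2 : ∀ x ∈ X, ∀ c ∈ A, x * x = c ^ 2 → x ∈ A := by
    intro x hx c hc hxc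
    obtain ⟨g, hg, hg'⟩ := hom_top _ (hkey1 x hx c⁻¹ (inv_mem hc))
    set h := g ^ 2 ^ (r - 2) with hh
    have hhA : h ∈ A := pow_mem hg _
    have hDh : D x h⁻¹ = 1 := by
      refine hDc x _ (inv_mem (hfour h hhA ?_))
      rw [hh, ← pow_mul, show 2 ^ (r - 2) * 4 = 2 ^ r by
        rw [show (4 : ℕ) = 2 ^ 2 by norm_num, ← pow_add, Nat.sub_add_cancel hr2], hr g hg]
    set a := c⁻¹ * h⁻¹ with ha
    have haA : a ∈ A := mul_mem (inv_mem hc) (inv_mem hhA)
    have hax : (a * x) * (a * x) = 1 := by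
      have e : (a * x) * (a * x) = a * (D x a) * a * (x * x) := by simp only [hD]; group
      have hDa : D x a = h ^ 2 := by
        rw [ha, hDhom x _ (inv_mem hc) _ (inv_mem hhA), hDh, mul_one, hg']
      rw [e, hDa, hxc]
      have h1 : a ^ 2 = (c ^ 2)⁻¹ * (h ^ 2)⁻¹ := by
        rw [ha, (hcomm _ (inv_mem hc) _ (inv_mem hhA)).mul_pow, inv_pow, inv_pow]
      rw [(hcomm a haA _ (pow_mem hhA 2)).eq]
      rw [show h ^ 2 * a * a * c ^ 2 = h ^ 2 * a ^ 2 * c ^ 2 by simp only [pow_two, mul_assoc], h1,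
        (hcomm _ (inv_mem (pow_mem hc 2)) _ (inv_mem (pow_mem hhA 2))).eq]
      group
    have hax' := hZA (d.invol_mem_omega hax).1
    have := mul_mem (inv_mem haA) hax'
    rwa [inv_mul_cancel_left] at this
  -- commutators inside X
  have hkey3 : ∀ x ∈ X, ∀ y ∈ X, D y x ∈ A ∧ (D y x) ^ 4 = 1 ∧
      (D y x) ^ 2 = D y (x * x) ∧ ∃ g ∈ A, g ^ 2 = D y x := by
    intro x hx y hy
    have hcA : D y x ∈ A := ((hX x).mp hx).1 y
    have hb := ((hX x).mp hx).2
    set c := D y x with hc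
    have e1 : D y (x * x) * (x * x) = c * (D x c) * c * (x * x) := by simp only [hc, hD]; group
    have hw1 := hkey1 x hx c hcA
    have hw2 := hkey1 y hy _ hb
    have e2 : D y (x * x) = c ^ 2 * D x c := by
      rw [mul_right_cancel e1, pow_two, mul_assoc, (hcomm _ (hDA x c hcA) c hcA).eq, ← mul_assoc]
    have h4 : c ^ 4 = 1 := by
      have : (c ^ 2) ^ 2 = 1 := by
        have : c ^ 2 = D y (x * x) * (D x c)⁻¹ := by rw [e2, mul_inv_cancel_right]
        rw [this]
        exact hom_sq _ (mul_mem hw2 (inv_mem hw1))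
      rwa [← pow_mul] at this
    have hDxc : D x c = 1 := hDc x c (hfour c hcA h4)
    rw [hDxc, mul_one] at e2
    refine ⟨hcA, h4, e2.symm, ?_⟩
    by_cases hr3 : r = 2
    · have h2 : c ^ 2 = 1 := by
        rw [← e2]
        refine hDc y _ (hfour _ hb ?_)
        have := hr _ hb
        rw [hr3] at this; exact this
      obtain ⟨g, hg, hg'⟩ := hF2 1 (by omega) c hcA (by rw [pow_one]; exact h2)
      exact ⟨g, hg, by rw [← hg', hr3]; norm_num⟩
    · obtain ⟨g, hg, hg'⟩ := hF2 2 (by omega) c hcA h4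
      refine ⟨g ^ 2 ^ (r - 3), pow_mem hg _, ?_⟩
      rw [← pow_mul, ← pow_succ, show r - 3 + 1 = r - 2 by omega, hg']
  -- the two maps onto the involutions
  let W := omegaCenter P
  let _ : CommGroup W :=
    { (inferInstance : Group W) with
      mul_comm := fun a b => Subtype.ext (Subgroup.mem_center_iff.mp b.2.1 a) }
  have hW2 : ∀ w : W, w * w = 1 := fun w => Subtype.ext w.2.2
  let w0 : W := ⟨d.z0, d.z0_center, d.z0_sq⟩
  have hw0 : w0 ≠ 1 := fun h => d.z0_ne (congrArg Subtype.val h)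
  have hregW : ∀ w : W, w ≠ 1 → ∃! k : d.K, k • w0 = w := by
    intro w hw
    obtain ⟨k, hk, hu⟩ := d.regular d.z0 w d.z0_ne d.z0_sq (fun h => hw (Subtype.ext h)) w.2.2
    exact ⟨k, Subtype.ext hk, fun l hl => hu l (congrArg Subtype.val hl)⟩
  have hψmem : ∀ a ∈ A, a ^ 2 ^ (r - 1) ∈ omegaCenter P := fun a ha => d.invol_mem_omega (by
    rw [← pow_two, ← pow_mul, ← pow_succ, show r - 1 + 1 = r by omega, hr a ha])
  have hφmem : ∀ x ∈ X, (x * x) ^ 2 ^ (r - 1) ∈ omegaCenter P := fun x hx =>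
    hψmem _ ((hX x).mp hx).2
  let ψ : P → W := fun a => if ha : a ∈ A then ⟨a ^ 2 ^ (r - 1), hψmem a ha⟩ else 1
  let φ : P → W := fun x => if hx : x ∈ X then ⟨(x * x) ^ 2 ^ (r - 1), hφmem x hx⟩ else 1
  have hψv : ∀ a ∈ A, (ψ a : P) = a ^ 2 ^ (r - 1) := fun a ha => by simp only [ψ, dif_pos ha]
  have hφv : ∀ x ∈ X, (φ x : P) = (x * x) ^ 2 ^ (r - 1) := fun x hx => by simp only [φ, dif_pos hx]
  have hsqkill : ∀ g ∈ A, (g ^ 2) ^ 2 ^ (r - 1) = 1 := fun g hg => by
    rw [← pow_mul, ← pow_succ', show r - 1 + 1 = r by omega, hr g hg]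
  have hψhom : ∀ a ∈ A, ∀ b ∈ A, ψ (a * b) = ψ a * ψ b := fun a ha b hb => Subtype.ext (by
    rw [Subgroup.coe_mul, hψv a ha, hψv b hb, hψv _ (mul_mem ha hb), (hcomm a ha b hb).mul_pow])
  have hφhom : ∀ x ∈ X, ∀ y ∈ X, φ (x * y) = φ x * φ y := by
    intro x hx y hy
    apply Subtype.ext
    rw [Subgroup.coe_mul, hφv x hx, hφv y hy, hφv _ (mul_mem hx hy)]
    obtain ⟨hcA, h4, -, g, hg, hg2⟩ := hkey3 x hx y hy
    have hxx := ((hX x).mp hx).2
    have hyy := ((hX y).mp hy).2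
    have hcc := Subgroup.mem_center_iff.mp (hfour _ hcA h4) x
    have e : x * y * (x * y) = (D y x) * (x * x) * (y * y) := by
      rw [show x * y * (x * y) = x * D y x * (x * y * y) by simp only [hD]; group, hcc]
      group
    rw [e, mul_assoc, (hcomm _ hcA _ (mul_mem hxx hyy)).mul_pow, (hcomm _ hxx _ hyy).mul_pow, ← hg2,
      hsqkill g hg, one_mul]
  have hψs : ∀ w : W, ∃ a ∈ A, ψ a = w := by
    intro w
    obtain ⟨a, ha, h⟩ := hF1 w w.2
    exact ⟨a, ha, Subtype.ext ((hψv a ha).trans h)⟩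
  have hψker : ∀ a ∈ A, ψ a = 1 → ∃ c ∈ A, c ^ 2 = a := by
    intro a ha h
    obtain ⟨c, hc, hc'⟩ := hF2 (r - 1) (by omega) a ha (by rw [← hψv a ha, h]; rfl)
    exact ⟨c, hc, by rw [← hc', show r - (r - 1) = 1 by omega]; norm_num⟩
  have hφker : ∀ x ∈ X, φ x = 1 → x ∈ A := by
    intro x hx h
    obtain ⟨c, hc, hc'⟩ := hψker _ ((hX x).mp hx).2 (Subtype.ext (by
      rw [hψv _ ((hX x).mp hx).2, ← hφv x hx, h]))
    exact hkey2 x hx c hc hc'.symm
  have hψk : ∀ k : d.K, ∀ a ∈ A, ψ ((k : MulAut P) a) = k • ψ a := fun k a ha => Subtype.ext (by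
    rw [d.coe_smul, hψv a ha, hψv _ (hAk k a ha), map_pow])
  have hφk : ∀ k : d.K, ∀ x ∈ X, φ ((k : MulAut P) x) = k • φ x := fun k x hx => Subtype.ext (by
    rw [d.coe_smul, hφv x hx, hφv _ (hXk k x hx), map_pow, map_mul])
  have hφs : ∀ w : W, ∃ x ∈ X, φ x = w := by
    intro w
    by_cases hw : w = 1
    · refine ⟨1, one_mem X, ?_⟩
      apply Subtype.ext
      rw [hφv 1 (one_mem X), hw, mul_one, one_pow]
      rfl
    have hne : (φ x1 : P) ≠ 1 := fun h => hx1A (hφker x1 hx1X (Subtype.ext h))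
    obtain ⟨k, hk⟩ := d.exists_map_eq hne (φ x1).2.2 (fun h => hw (Subtype.ext h)) w.2.2
    exact ⟨(k : MulAut P) x1, hXk k x1 hx1X, by rw [hφk k x1 hx1X]; exact Subtype.ext hk⟩
  have hDmulX : ∀ x ∈ X, ∀ y ∈ X, ∀ a ∈ A, D (x * y) a = D x a * D y a := by
    intro x hx y hy a ha
    have hyc : D x (D y a) = 1 := hDc x _ (hkey1 y hy a ha).1
    have e : D (x * y) a = x * (D y a) * x⁻¹ * D x a := by simp only [hD]; group
    rw [e]
    have : x * D y a * x⁻¹ = D y a := mul_inv_eq_one.mp hyc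
    rw [this]
    exact hcomm _ (hDA y a ha) _ (hDA x a ha)
  let act : d.K → P → P := fun k x => (k : MulAut P) x
  let DW : P → P → W := fun x a => if h : D x a ∈ omegaCenter P then ⟨D x a, h⟩ else 1
  have hDWv : ∀ x ∈ X, ∀ a ∈ A, (DW x a : P) = D x a := fun x hx a ha => by
    simp only [DW, dif_pos (hkey1 x hx a ha)]
  have hDself : ∀ u ∈ A, ∀ v ∈ A, D u v = 1 := fun u hu v hv => by
    show u * v * u⁻¹ * v⁻¹ = 1
    rw [(hcomm u hu v hv).eq, mul_inv_cancel_right, mul_inv_cancel]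
  have hcent : ∀ x ∈ X, ∀ a ∈ A, D x a = 1 := by
    intro x hx a ha
    rw [← hDWv x hx a ha]
    refine congrArg Subtype.val (pairing_eq_one (P := P) hW2 w0 hw0 hregW act X A φ ψ DW hφhom hφs hψhom
      hψs ?_ ?_ ?_ ?_ ?_ x hx a ha)
    · intro x hx y hy a ha
      exact Subtype.ext (by
        rw [Subgroup.coe_mul, hDWv x hx a ha, hDWv y hy a ha, hDWv _ (mul_mem hx hy) a ha]
        exact hDmulX x hx y hy a ha)
    · intro x hx a ha b hb
      exact Subtype.ext (by
        rw [Subgroup.coe_mul, hDWv x hx a ha, hDWv x hx b hb, hDWv x hx _ (mul_mem ha hb)]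
        exact hDhom x a ha b hb)
    · intro x hx y hy a ha b hb hxy hab
      apply Subtype.ext
      rw [hDWv x hx a ha, hDWv y hy b hb]
      have hu : x * y⁻¹ ∈ A := hφker _ (mul_mem hx (inv_mem hy)) (by
        have := hφhom (x * y⁻¹) (mul_mem hx (inv_mem hy)) y hy
        rw [inv_mul_cancel_right, ← hxy] at this
        exact right_eq_mul.mp this)
      obtain ⟨c, hc, hc'⟩ := hψker (a * b⁻¹) (mul_mem ha (inv_mem hb)) (by
        have := hψhom (a * b⁻¹) (mul_mem ha (inv_mem hb)) b hb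
        rw [inv_mul_cancel_right, ← hab] at this
        exact right_eq_mul.mp this)
      have h1 := hDmulX (x * y⁻¹) (hAX hu) y hy a ha
      rw [inv_mul_cancel_right, hDself _ hu a ha, one_mul] at h1
      have h2 := hDhom y (a * b⁻¹) (mul_mem ha (inv_mem hb)) b hb
      rw [inv_mul_cancel_right, ← hc', hDsq y hy c hc, one_mul] at h2
      rw [h1, h2]
    · intro k x hx a ha
      refine ⟨hXk k x hx, hAk k a ha, hφk k x hx, hψk k a ha, Subtype.ext ?_⟩
      rw [d.coe_smul, hDWv x hx a ha, hDWv _ (hXk k x hx) _ (hAk k a ha)]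
      simp only [hD, act, map_mul, map_inv]
    · intro w
      obtain ⟨x, hx, hxw⟩ := hφs w
      refine ⟨x, hx, x * x, ((hX x).mp hx).2, hxw, ?_, ?_⟩
      · rw [← hxw]
        exact Subtype.ext (by rw [hψv _ ((hX x).mp hx).2, hφv x hx])
      · apply Subtype.ext
        rw [hDWv x hx _ ((hX x).mp hx).2]
        simp only [hD]
        group
        rfl
  have hXab : ∀ x ∈ X, ∀ y ∈ X, D y x = 1 := by
    intro x hx y hy
    have hmem : ∀ y ∈ X, ∀ x ∈ X, D y x ∈ omegaCenter P := by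
      intro y hy x hx
      obtain ⟨hcA, -, h2, -⟩ := hkey3 x hx y hy
      apply d.invol_mem_omega
      rw [← pow_two, h2]
      exact hcent y hy _ ((hX x).mp hx).2
    have hAc' : ∀ y ∈ X, ∀ u ∈ A, D y u = 1 ∧ D u y = 1 := by
      intro y hy u hu
      have h := hcent y hy u hu
      refine ⟨h, ?_⟩
      have : D u y = (D y u)⁻¹ := by simp only [hD]; group
      rw [this, h, inv_one]
    have hml : ∀ x ∈ X, ∀ y ∈ X, ∀ a ∈ X, D (x * y) a = D x a * D y a := by
      intro x hx y hy a ha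
      have hc := Subgroup.mem_center_iff.mp (hmem y hy a ha).1
      have e : D (x * y) a = x * (D y a) * x⁻¹ * D x a := by simp only [hD]; group
      rw [e, hc x, mul_inv_cancel_right]
      exact (hc _).symm
    have hmr : ∀ x ∈ X, ∀ a ∈ X, ∀ b ∈ X, D x (a * b) = D x a * D x b := by
      intro x hx a ha b hb
      have hc := Subgroup.mem_center_iff.mp (hmem x hx b hb).1
      have e : D x (a * b) = (D x a) * (a * D x b * a⁻¹) := by simp only [hD]; group
      rw [e, hc a, mul_inv_cancel_right]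
    let DX : P → P → W := fun x a => if h : D x a ∈ omegaCenter P then ⟨D x a, h⟩ else 1
    have hDXv : ∀ x ∈ X, ∀ a ∈ X, (DX x a : P) = D x a := fun x hx a ha => by
      simp only [DX, dif_pos (hmem x hx a ha)]
    rw [← hDXv y hy x hx]
    refine congrArg Subtype.val (pairing_eq_one (P := P) hW2 w0 hw0 hregW act X X φ φ DX hφhom hφs hφhom
      hφs ?_ ?_ ?_ ?_ ?_ y hy x hx)
    · intro x hx y hy a ha
      exact Subtype.ext (by
        rw [Subgroup.coe_mul, hDXv x hx a ha, hDXv y hy a ha, hDXv _ (mul_mem hx hy) a ha]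
        exact hml x hx y hy a ha)
    · intro x hx a ha b hb
      exact Subtype.ext (by
        rw [Subgroup.coe_mul, hDXv x hx a ha, hDXv x hx b hb, hDXv x hx _ (mul_mem ha hb)]
        exact hmr x hx a ha b hb)
    · intro x hx y hy a ha b hb hxy hab
      apply Subtype.ext
      rw [hDXv x hx a ha, hDXv y hy b hb]
      have hcan : ∀ p ∈ X, ∀ q ∈ X, φ p = φ q → p * q⁻¹ ∈ A := by
        intro p hp q hq hpq
        refine hφker _ (mul_mem hp (inv_mem hq)) ?_
        have := hφhom (p * q⁻¹) (mul_mem hp (inv_mem hq)) q hq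
        rw [inv_mul_cancel_right, ← hpq] at this
        exact right_eq_mul.mp this
      have hu := hcan x hx y hy hxy
      have hv := hcan a ha b hb hab
      have h1 := hml (x * y⁻¹) (hAX hu) y hy a ha
      rw [inv_mul_cancel_right, (hAc' a ha _ hu).2, one_mul] at h1
      have h2 := hmr y hy (a * b⁻¹) (hAX hv) b hb
      rw [inv_mul_cancel_right, (hAc' y hy _ hv).1, one_mul] at h2
      rw [h1, h2]
    · intro k x hx a ha
      refine ⟨hXk k x hx, hXk k a ha, hφk k x hx, hφk k a ha, Subtype.ext ?_⟩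
      rw [d.coe_smul, hDXv x hx a ha, hDXv _ (hXk k x hx) _ (hXk k a ha)]
      simp only [hD, act, map_mul, map_inv]
    · intro w
      obtain ⟨x, hx, hxw⟩ := hφs w
      refine ⟨x, hx, x, hx, hxw, hxw, Subtype.ext ?_⟩
      rw [hDXv x hx x hx]
      simp [hD]
  apply hx1A
  refine hAmax (show X ∈ good from ⟨hZA.trans hAX, ?_, hXk, ?_⟩) hAX hx1X
  · intro g x hx
    have := mul_mem (hAX (((hX x).mp hx).1 g)) hx
    rwa [inv_mul_cancel_right] at this
  · intro x hx y hy
    exact (mul_inv_eq_iff_eq_mul.mp (mul_inv_eq_one.mp (hXab x hx y hy))).symm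

theorem invol_iff_center (hp : IsPGroup 2 P) (hna : ∃ x y : P, x * y ≠ y * x) (d : Data P) (x : P) :
    x * x = 1 ↔ x ∈ Subgroup.center P :=
  ⟨fun h => (d.invol_mem_omega h).1, center_sq_eq_one hp hna d x⟩

end Cfsg.Agent.Suz2
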