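import Mathlib

set_option autoImplicit false

namespace Cfsg.Agent.Suz2

/-- Two central extensions of an elementary abelian 2-group by an elementary abelian 2-group with
the same squaring map are isomorphic. -/
theorem iso_of_sq {P Q A B : Type*} [Group P] [Group Q] [Finite P] [Finite Q] [AddGroup A] [AddGroup B]
    (η : P → A) (hη : ∀ x y, η (x * y) = η x + η y) (hηs : Function.Surjective η)
    (η' : Q → A) (hη' : ∀ x y, η' (x * y) = η' x + η' y) (hη's : Function.Surjective η')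
    (hc : ∀ x, η x = 0 → x ∈ Subgroup.center P) (hc' : ∀ x, η' x = 0 → x ∈ Subgroup.center Q)
    (β : P → B) (hβ : ∀ x y, η x = 0 → η y = 0 → β (x * y) = β x + β y)
    (hβs : ∀ b, ∃ x, η x = 0 ∧ β x = b) (hβi : ∀ x, η x = 0 → β x = 0 → x = 1)
    (β' : Q → B) (hβ' : ∀ x y, η' x = 0 → η' y = 0 → β' (x * y) = β' x + β' y)
    (hβ's : ∀ b, ∃ x, η' x = 0 ∧ β' x = b) (hβ'i : ∀ x, η' x = 0 → β' x = 0 → x = 1)
    (q : A → B) (hsq : ∀ x, η (x * x) = 0 ∧ β (x * x) = q (η x))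
    (hsq' : ∀ x, η' (x * x) = 0 ∧ β' (x * x) = q (η' x)) :
    Nonempty (P ≃* Q) := by
  have h1 : η 1 = 0 := by have := hη 1 1; rw [mul_one] at this; exact left_eq_add.mp this
  have h1' : η' 1 = 0 := by have := hη' 1 1; rw [mul_one] at this; exact left_eq_add.mp this
  have hb1 : β 1 = 0 := by have := hβ 1 1 h1 h1; rw [mul_one] at this; exact left_eq_add.mp this
  have hb1' : β' 1 = 0 := by have := hβ' 1 1 h1' h1'; rw [mul_one] at this; exact left_eq_add.mp this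
  have hi : ∀ x, η x⁻¹ = -η x := fun x => by
    have := hη x⁻¹ x; rw [inv_mul_cancel, h1] at this; exact eq_neg_of_add_eq_zero_left this.symm
  have hi' : ∀ x, η' x⁻¹ = -η' x := fun x => by
    have := hη' x⁻¹ x; rw [inv_mul_cancel, h1'] at this; exact eq_neg_of_add_eq_zero_left this.symm
  let H : Subgroup (P × Q) :=
    { carrier := {p | η p.1 = η' p.2}
      one_mem' := by show η 1 = η' 1; rw [h1, h1']
      mul_mem' := fun {a b} (ha : η a.1 = η' a.2) (hb : η b.1 = η' b.2) => by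
        show η (a.1 * b.1) = η' (a.2 * b.2); rw [hη, hη', ha, hb]
      inv_mem' := fun {a} (ha : η a.1 = η' a.2) => by
        show η a.1⁻¹ = η' a.2⁻¹; rw [hi, hi', ha] }
  let C : Subgroup (P × Q) :=
    { carrier := {p | η p.1 = 0 ∧ η' p.2 = 0}
      one_mem' := ⟨h1, h1'⟩
      mul_mem' := fun {a b} ha hb =>
        ⟨by simp [hη, ha.1, hb.1], by simp [hη', ha.2, hb.2]⟩
      inv_mem' := fun {a} ha => ⟨by simp [hi, ha.1], by simp [hi', ha.2]⟩ }
  let N : Subgroup (P × Q) :=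
    { carrier := {p | η p.1 = 0 ∧ η' p.2 = 0 ∧ β p.1 = β' p.2}
      one_mem' := ⟨h1, h1', by show β 1 = β' 1; rw [hb1, hb1']⟩
      mul_mem' := fun {a b} ha hb =>
        ⟨by simp [hη, ha.1, hb.1], by simp [hη', ha.2.1, hb.2.1],
          by show β (a.1 * b.1) = β' (a.2 * b.2); rw [hβ _ _ ha.1 hb.1, hβ' _ _ ha.2.1 hb.2.1, ha.2.2, hb.2.2]⟩
      inv_mem' := fun {a} ha => by
        have e1 : η a.1⁻¹ = 0 := by rw [hi, ha.1, neg_zero]
        have e2 : η' a.2⁻¹ = 0 := by rw [hi', ha.2.1, neg_zero]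
        refine ⟨e1, e2, ?_⟩
        have t1 := hβ _ _ e1 ha.1
        have t2 := hβ' _ _ e2 ha.2.1
        rw [inv_mul_cancel, hb1] at t1
        rw [inv_mul_cancel, hb1'] at t2
        show β a.1⁻¹ = β' a.2⁻¹
        rw [eq_neg_of_add_eq_zero_left t1.symm, eq_neg_of_add_eq_zero_left t2.symm, ha.2.2] }
  have hCcent : ∀ c ∈ C, ∀ p : P × Q, p * c = c * p := fun c hc0 p =>
    Prod.ext (Subgroup.mem_center_iff.mp (hc _ hc0.1) _) (Subgroup.mem_center_iff.mp (hc' _ hc0.2) _)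
  have hsqN : ∀ p ∈ H, p * p ∈ N := fun p (hp : η p.1 = η' p.2) =>
    ⟨(hsq _).1, (hsq' _).1, by show β (p.1 * p.1) = β' (p.2 * p.2); rw [(hsq _).2, (hsq' _).2, hp]⟩
  have hNC : N ≤ C := fun p hp => ⟨hp.1, hp.2.1⟩
  have hCH : C ≤ H := fun p hp => by show η p.1 = η' p.2; rw [hp.1, hp.2]
  let S : Set (Subgroup (P × Q)) := {L | N ≤ L ∧ L ≤ H ∧ ∀ p ∈ L, p ∈ C → p ∈ N}
  obtain ⟨L, ⟨hNL, hLH, hLC⟩, hmax⟩ :=
    (Set.toFinite S).exists_maximal ⟨N, le_rfl, hNC.trans hCH, fun p hp _ => hp⟩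
  have hconjH : ∀ g ∈ H, ∀ p ∈ H, g * p * g⁻¹ * p⁻¹ ∈ N := by
    intro g hg p hp
    have e : g * p * g⁻¹ * p⁻¹ = (g * p) * (g * p) * ((g * p)⁻¹ * g⁻¹ * g⁻¹ * (g * p)) * (p * p)⁻¹ := by
      group
    have hgg := hsqN g hg
    have hc0 : (g * p)⁻¹ * g⁻¹ * g⁻¹ * (g * p) = (g * g)⁻¹ := by
      rw [show (g * p)⁻¹ * g⁻¹ * g⁻¹ * (g * p) = (g * p)⁻¹ * ((g * g)⁻¹ * (g * p)) by group,
        ← hCcent _ (inv_mem (hNC hgg)) (g * p), inv_mul_cancel_left]
    rw [e, hc0]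
    exact mul_mem (mul_mem (hsqN _ (mul_mem hg hp)) (inv_mem hgg)) (inv_mem (hsqN p hp))
  have hfull : ∀ g ∈ H, ∃ l ∈ L, ∃ c ∈ C, g = l * c := by
    intro g hg
    by_contra hcon
    push Not at hcon
    let L' : Subgroup (P × Q) :=
      { carrier := {p | p ∈ L ∨ ∃ l ∈ L, p = l * g}
        one_mem' := Or.inl (one_mem L)
        mul_mem' := by
          rintro a b (ha | ⟨l, hl, rfl⟩) (hb | ⟨m, hm, rfl⟩)
          · exact Or.inl (mul_mem ha hb)
          · exact Or.inr ⟨a * m, mul_mem ha hm, by rw [mul_assoc]⟩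
          · refine Or.inr ⟨l * (g * b * g⁻¹ * b⁻¹ * b), mul_mem hl (mul_mem (hNL (hconjH g hg b (hLH hb))) hb), ?_⟩
            group
          · refine Or.inl ?_
            rw [show l * g * (m * g) = l * (g * m * g⁻¹ * m⁻¹ * m) * (g * g) by group]
            exact mul_mem (mul_mem hl (mul_mem (hNL (hconjH g hg m (hLH hm))) hm)) (hNL (hsqN g hg))
        inv_mem' := by
          rintro a (ha | ⟨l, hl, rfl⟩)
          · exact Or.inl (inv_mem ha)
          · refine Or.inr ⟨(g * g)⁻¹ * (g * l⁻¹ * g⁻¹ * (l⁻¹)⁻¹ * l⁻¹), mul_mem (inv_mem (hNL (hsqN g hg)))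
              (mul_mem (hNL (hconjH g hg _ (inv_mem (hLH hl)))) (inv_mem hl)), ?_⟩
            group }
    have hgL : g ∈ L' := Or.inr ⟨1, one_mem L, (one_mul g).symm⟩
    have hL'S : L' ∈ S := by
      refine ⟨hNL.trans fun p hp => Or.inl hp, ?_, ?_⟩
      · rintro p (hp | ⟨l, hl, rfl⟩)
        · exact hLH hp
        · exact mul_mem (hLH hl) hg
      · rintro p (hp | ⟨l, hl, rfl⟩) hpC
        · exact hLC p hp hpC
        · exact absurd (inv_mul_cancel_left l g).symm (hcon l⁻¹ (inv_mem hl) _ hpC)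
    have : g ∈ L := hmax hL'S (fun p hp => Or.inl hp) hgL
    exact hcon g this 1 (one_mem C) (mul_one g).symm
  have hbij : Function.Bijective (fun p : L => (p : P × Q).1) := by
    constructor
    · intro a b hab
      have hmem : ((a⁻¹ * b : L) : P × Q).1 = 1 := by
        simp only [Subgroup.coe_mul, Subgroup.coe_inv, Prod.fst_mul, Prod.fst_inv]
        simp only at hab
        rw [hab, inv_mul_cancel]
      set p := ((a⁻¹ * b : L) : P × Q) with hp
      have hpL : p ∈ L := (a⁻¹ * b : L).2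
      have hH : η p.1 = η' p.2 := hLH hpL
      rw [hmem, h1] at hH
      obtain ⟨-, -, hb⟩ := hLC p hpL ⟨by rw [hmem, h1], hH.symm⟩
      rw [hmem, hb1] at hb
      have : p = 1 := Prod.ext hmem (hβ'i _ hH.symm hb.symm)
      have h' : (a⁻¹ * b : L) = 1 := Subtype.ext this
      exact inv_mul_eq_one.mp h'
    · intro x
      obtain ⟨y, hy⟩ := hη's (η x)
      obtain ⟨l, hl, c, hc0, he⟩ := hfull (x, y) hy.symm
      obtain ⟨z, hz, hz'⟩ := hβ's (β c.1)
      refine ⟨⟨l * (c.1, z), mul_mem hl (hNL ⟨hc0.1, hz, hz'.symm⟩)⟩, ?_⟩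
      exact (congrArg Prod.fst he).symm
  have hbij' : Function.Bijective (fun p : L => (p : P × Q).2) := by
    constructor
    · intro a b hab
      have hmem : ((a⁻¹ * b : L) : P × Q).2 = 1 := by
        simp only [Subgroup.coe_mul, Subgroup.coe_inv, Prod.snd_mul, Prod.snd_inv]
        simp only at hab
        rw [hab, inv_mul_cancel]
      set p := ((a⁻¹ * b : L) : P × Q) with hp
      have hpL : p ∈ L := (a⁻¹ * b : L).2
      have hH : η p.1 = η' p.2 := hLH hpL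
      rw [hmem, h1'] at hH
      obtain ⟨-, -, hb⟩ := hLC p hpL ⟨hH, by rw [hmem, h1']⟩
      rw [hmem, hb1'] at hb
      have : p = 1 := Prod.ext (hβi _ hH hb) hmem
      have h' : (a⁻¹ * b : L) = 1 := Subtype.ext this
      exact inv_mul_eq_one.mp h'
    · intro y
      obtain ⟨x, hx⟩ := hηs (η' y)
      obtain ⟨l, hl, c, hc0, he⟩ := hfull (x, y) hx
      obtain ⟨z, hz, hz'⟩ := hβs (β' c.2)
      refine ⟨⟨l * (z, c.2), mul_mem hl (hNL ⟨hz, hc0.2, hz'⟩)⟩, ?_⟩
      exact (congrArg Prod.snd he).symm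
  let e1 : L ≃* P := MulEquiv.ofBijective ((MonoidHom.fst P Q).comp L.subtype) hbij
  let e2 : L ≃* Q := MulEquiv.ofBijective ((MonoidHom.snd P Q).comp L.subtype) hbij'
  exact ⟨e1.symm.trans e2⟩

end Cfsg.Agent.Suz2
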