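import Mathlib

set_option autoImplicit false

namespace Cfsg.Agent.Suz2

open Polynomial

theorem odd_choose_lowbit : ∀ (i m : ℕ), Odd m → Odd ((2 ^ i * m).choose (2 ^ i)) := by
  intro i
  induction i with
  | zero => intro m hm; simpa using hm
  | succ i ih =>
    intro m hm
    have : Fact (Nat.Prime 2) := ⟨Nat.prime_two⟩
    have h := Choose.choose_modEq_choose_mod_mul_choose_div_nat (p := 2)
      (n := 2 ^ (i + 1) * m) (k := 2 ^ (i + 1))
    rw [pow_succ', mul_assoc, Nat.mul_mod_right, Nat.mul_mod_right, Nat.mul_div_cancel_left _ (by norm_num),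
      Nat.mul_div_cancel_left _ (by norm_num), Nat.choose_zero_right, one_mul] at h
    rw [pow_succ', mul_assoc, Nat.odd_iff, h]
    exact Nat.odd_iff.mp (ih m hm)

/-- A natural number `0 < e` is a power of two, or has a lowest bit followed by an odd part. -/
theorem exists_lowbit {e : ℕ} (he : e ≠ 0) : ∃ i m, Odd m ∧ e = 2 ^ i * m := by
  obtain ⟨i, m, hm, rfl⟩ := Nat.exists_eq_pow_mul_and_not_dvd he 2 (by norm_num)
  exact ⟨i, m, Nat.odd_iff.mpr (by omega), rfl⟩

variable {F : Type*} [Field F] [Fintype F] [CharP F 2]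

theorem exponent_two_bits {e : ℕ} (he0 : e ≠ 0) (he : e < Fintype.card F)
    (hadd : ∀ a b : F, (1 + (a + b)) ^ e + 1 + (a + b) ^ e =
      ((1 + a) ^ e + 1 + a ^ e) + ((1 + b) ^ e + 1 + b ^ e)) :
    (∃ i, e = 2 ^ i) ∨ ∃ i j, i < j ∧ e = 2 ^ i + 2 ^ j := by
  set Q : F[X] := (1 + X) ^ e + 1 + X ^ e with hQ
  have hdeg : Q.natDegree < Fintype.card F := by
    refine lt_of_le_of_lt ?_ he
    rw [hQ]
    compute_degree
  have hev : ∀ a, Q.eval a = (1 + a) ^ e + 1 + a ^ e := by intro a; simp [hQ]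
  have hkey : ∀ m l : ℕ, 1 ≤ m → m < l → (l.choose m : F) * Q.coeff l = 0 := by
    intro m l hm hml
    have hT : ∀ c : F, (hasseDeriv m Q).eval c = Q.coeff m := by
      intro c
      have : taylor c Q = Q + C (Q.eval c) := by
        refine eq_of_natDegree_lt_card_of_eval_eq _ _ Function.injective_id (fun a => ?_) ?_
        · simp only [taylor_eval, eval_add, eval_C, hev, id_eq]
          exact hadd a c
        · rw [natDegree_taylor, natDegree_add_C, max_self]
          exact hdeg
      rw [← taylor_coeff, this, coeff_add, coeff_C, if_neg (by omega), add_zero]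
    have hconst : hasseDeriv m Q = C (Q.coeff m) := by
      refine eq_of_natDegree_lt_card_of_eval_eq _ _ Function.injective_id (fun a => ?_) ?_
      · simpa using hT a
      · rw [natDegree_C]
        have := natDegree_hasseDeriv_le Q m
        omega
    have := congrArg (fun R => R.coeff (l - m)) hconst
    rw [hasseDeriv_coeff, Nat.sub_add_cancel hml.le, coeff_C, if_neg (by omega)] at this
    exact this
  have hpow : ∀ l, 0 < l → l < e → Odd (e.choose l) → ∃ i, l = 2 ^ i := by
    intro l hl hle hodd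
    obtain ⟨i, m, hm, rfl⟩ := exists_lowbit hl.ne'
    by_contra hne
    have hm1 : m ≠ 1 := fun h => hne ⟨i, by rw [h, mul_one]⟩
    have h2m : 1 < m := by have := hm.pos; omega
    have hlt : 2 ^ i < 2 ^ i * m := lt_mul_of_one_lt_right (by positivity) h2m
    have h := hkey (2 ^ i) (2 ^ i * m) Nat.one_le_two_pow hlt
    have hcoe : Q.coeff (2 ^ i * m) = (e.choose (2 ^ i * m) : F) := by
      rw [hQ, coeff_add, coeff_add, coeff_one_add_X_pow, coeff_one, if_neg hl.ne', coeff_X_pow,
        if_neg hle.ne, add_zero, add_zero]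
    have hone : ∀ k : ℕ, Odd k → (k : F) = 1 := by
      intro k hk
      obtain ⟨t, rfl⟩ := hk
      push_cast
      rw [CharTwo.two_eq_zero, zero_mul, zero_add]
    rw [hcoe, hone _ (odd_choose_lowbit i m hm), hone _ hodd, mul_one] at h
    exact one_ne_zero h
  obtain ⟨i, m, hm, rfl⟩ := exists_lowbit he0
  by_cases hm1 : m = 1
  · exact Or.inl ⟨i, by rw [hm1, mul_one]⟩
  have h2m : 1 < m := by have := hm.pos; omega
  have hlt : 2 ^ i < 2 ^ i * m := lt_mul_of_one_lt_right (by positivity) h2m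
  obtain ⟨j, hj⟩ := hpow (2 ^ i * m - 2 ^ i) (by omega) (by have := Nat.two_pow_pos i; omega) (by
    rw [Nat.choose_symm hlt.le]
    exact odd_choose_lowbit i m hm)
  refine Or.inr ⟨i, j, ?_, by omega⟩
  obtain ⟨t, rfl⟩ := hm
  have h2 : 2 ^ j = 2 ^ (i + 1) * t := by
    rw [← hj, mul_add, mul_one, Nat.add_sub_cancel, pow_succ]; ring
  by_contra hij
  have : 2 ^ j < 2 ^ (i + 1) := Nat.pow_lt_pow_right (by norm_num) (by omega)
  have ht : 1 ≤ t := by omega
  have := Nat.le_mul_of_pos_right (2 ^ (i + 1)) ht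
  omega

/-- An injective multiplicative map with non-trivial biadditive polarisation is `x ↦ τ (x * φ x)`
with `φ` a non-trivial automorphism of odd order. -/
theorem quadratic_monoid_hom (s : F → F) (hs0 : s 0 = 0) (hs1 : s 1 = 1)
    (hmul : ∀ a b, s (a * b) = s a * s b) (hinj : Function.Injective s)
    (hpol : ∀ a b, s (1 + (a + b)) + s 1 + s (a + b) =
      (s (1 + a) + s 1 + s a) + (s (1 + b) + s 1 + s b))
    (hnl : ∃ a b, s (a + b) ≠ s a + s b) :
    ∃ φ τ : F ≃+* F, φ ≠ RingEquiv.refl F ∧ Odd (orderOf φ) ∧ ∀ x, s x = τ (x * φ x) := by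
  classical
  obtain ⟨⟨n, hn0⟩, -, hn⟩ := FiniteField.card F 2
  change Fintype.card F = 2 ^ n at hn
  set q := Fintype.card F with hq
  let u : Fˣ →* Fˣ := Units.map { toFun := s, map_one' := hs1, map_mul' := hmul }
  obtain ⟨k, hk⟩ := MonoidHom.map_cyclic u
  have hq1 : 0 < q - 1 := by have := Fintype.one_lt_card (α := F); omega
  set e := (k % ((q - 1 : ℕ) : ℤ)).toNat with he
  have hkk : ((e : ℕ) : ℤ) = k % ((q - 1 : ℕ) : ℤ) :=
    Int.toNat_of_nonneg (Int.emod_nonneg _ (by omega))
  have helt : e < q - 1 := by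
    have := Int.emod_lt_of_pos k (show (0 : ℤ) < ((q - 1 : ℕ) : ℤ) by exact_mod_cast hq1)
    omega
  have hse : ∀ x : F, x ≠ 0 → s x = x ^ e := by
    intro x hx
    have h := hk (Units.mk0 x hx)
    have hord : (orderOf (Units.mk0 x hx) : ℤ) ∣ ((q - 1 : ℕ) : ℤ) := by
      rw [hq, ← Fintype.card_units]; exact_mod_cast orderOf_dvd_card
    have h2 : (Units.mk0 x hx) ^ k = (Units.mk0 x hx) ^ ((e : ℕ) : ℤ) := by
      rw [zpow_eq_zpow_iff_modEq, hkk, Int.ModEq, Int.emod_emod_of_dvd _ hord]
    rw [h2, zpow_natCast] at h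
    exact congrArg Units.val h
  have he0 : e ≠ 0 := by
    intro h0
    have hall : ∀ x : F, x ≠ 0 → x = 1 := fun x hx => hinj (by rw [hse x hx, h0, pow_zero, hs1])
    obtain ⟨a, b, hab⟩ := hnl
    apply hab
    by_cases ha : a = 0
    · subst ha; rw [zero_add, hs0, zero_add]
    by_cases hb : b = 0
    · subst hb; rw [add_zero, hs0, add_zero]
    rw [hall a ha, hall b hb, CharTwo.add_self_eq_zero, hs0, CharTwo.add_self_eq_zero]
  have hall : ∀ x : F, s x = x ^ e := by
    intro x
    by_cases hx : x = 0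
    · rw [hx, hs0, zero_pow he0]
    · exact hse x hx
  rcases exponent_two_bits he0 (show e < q by omega) (fun a b => by
      have := hpol a b
      simpa only [hall, one_pow] using this) with ⟨i, hi⟩ | ⟨i, j, hij, hij'⟩
  · obtain ⟨a, b, hab⟩ := hnl
    exact absurd (by rw [hall, hall, hall, hi, add_pow_char_pow]) hab
  have hjn : j < n := by
    by_contra h
    have := Nat.pow_le_pow_right (show 1 ≤ 2 by norm_num) (show n ≤ j by omega)
    rw [← hn] at this
    have := Nat.two_pow_pos i
    omega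
  set c := j - i with hc
  refine ⟨iterateFrobeniusEquiv F 2 c, iterateFrobeniusEquiv F 2 i, ?_, ?_, ?_⟩
  · intro h
    have hx : ∀ x : F, x ^ 2 ^ c = x := fun x => by
      rw [← iterateFrobeniusEquiv_def, h]; rfl
    have h1 : 1 < 2 ^ c := Nat.one_lt_two_pow (by omega)
    have hp : (X ^ 2 ^ c - X : F[X]) = 0 := by
      refine eq_zero_of_natDegree_lt_card_of_eval_eq_zero _ Function.injective_id (fun a => ?_) ?_
      · simp [hx a]
      · rw [FiniteField.X_pow_card_sub_X_natDegree_eq F h1, ← hq, hn]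
        exact Nat.pow_lt_pow_right (by norm_num) (by omega)
    exact FiniteField.X_pow_card_sub_X_ne_zero F h1 hp
  · set g := Nat.gcd n c with hg
    have hgpos : 0 < g := Nat.gcd_pos_of_pos_left _ hn0
    obtain ⟨a, ha⟩ : g ∣ n := Nat.gcd_dvd_left n c
    obtain ⟨b, hb⟩ : g ∣ c := Nat.gcd_dvd_right n c
    have hcop : Nat.Coprime a b := by
      have h := Nat.gcd_mul_left g a b
      rw [← ha, ← hb, ← hg] at h
      exact Nat.eq_of_mul_eq_mul_left hgpos (by rw [mul_one]; exact h.symm)
    have hpow : ∀ (t : ℕ) (x : F), ((iterateFrobeniusEquiv F 2 c) ^ t) x = x ^ 2 ^ (c * t) := by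
      intro t
      induction t with
      | zero => intro x; simp
      | succ t ih =>
        intro x
        rw [pow_succ']
        show iterateFrobeniusEquiv F 2 c (((iterateFrobeniusEquiv F 2 c) ^ t) x) = _
        rw [ih, iterateFrobeniusEquiv_def, ← pow_mul, ← pow_add, mul_add, mul_one]
    have hord : orderOf (iterateFrobeniusEquiv F 2 c) ∣ a := by
      apply orderOf_dvd_of_pow_eq_one
      ext x
      rw [hpow, show c * a = n * b by rw [hb, ha]; ring, pow_mul, ← hn]
      exact FiniteField.pow_card_pow b x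
    rcases Nat.even_or_odd a with haev | haodd
    swap
    · exact Odd.of_dvd_nat haodd hord
    exfalso
    have hbodd : Odd b := by
      rw [← Nat.not_even_iff_odd]
      intro hbev
      exact Nat.not_coprime_of_dvd_of_dvd (by norm_num) (even_iff_two_dvd.mp haev)
        (even_iff_two_dvd.mp hbev) hcop
    have hd1 : 2 ^ g + 1 ∣ 2 ^ c + 1 := by
      have := hbodd.nat_add_dvd_pow_add_pow (2 ^ g) 1
      rwa [one_pow, ← pow_mul, ← hb] at this
    obtain ⟨a', rfl⟩ := even_iff_two_dvd.mp haev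
    have hd2 : 2 ^ g + 1 ∣ q - 1 := by
      rw [hn, ha, ← mul_assoc, mul_comm g 2, pow_mul]
      refine dvd_trans ?_ (Nat.sub_one_dvd_pow_sub_one (n := a') (x := 2 ^ (2 * g)))
      refine ⟨2 ^ g - 1, ?_⟩
      rw [← Nat.sq_sub_sq, one_pow, ← pow_mul, mul_comm g 2]
    obtain ⟨ζ, hζ⟩ := IsCyclic.exists_generator (α := Fˣ)
    have hζo : orderOf ζ = q - 1 := by
      rw [orderOf_eq_card_of_forall_mem_zpowers hζ, Nat.card_eq_fintype_card, Fintype.card_units]
    obtain ⟨w, hw⟩ := hd2
    have hy : ζ ^ w ≠ 1 := by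
      refine pow_ne_one_of_lt_orderOf (fun h => by rw [h, mul_zero] at hw; omega) ?_
      rw [hζo, hw]
      have hw0 : 0 < w := Nat.pos_of_ne_zero fun h => by rw [h, mul_zero] at hw; omega
      exact lt_mul_of_one_lt_left hw0 (by have := Nat.two_pow_pos g; omega)
    have hye : ((ζ ^ w : Fˣ) : F) ^ e = 1 := by
      obtain ⟨d, hd⟩ := hd1
      have he2 : e = 2 ^ i * ((2 ^ g + 1) * d) := by
        rw [← hd, mul_add, mul_one, ← pow_add, show i + c = j by omega, hij', add_comm]
      rw [← Units.val_pow_eq_pow_val, ← pow_mul, he2,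
        show w * (2 ^ i * ((2 ^ g + 1) * d)) = ((2 ^ g + 1) * w) * (2 ^ i * d) by ring, ← hw, pow_mul,
        ← hζo, pow_orderOf_eq_one, one_pow, Units.val_one]
    apply hy
    refine Units.ext (hinj ?_)
    rw [hall, hye, Units.val_one, hs1]
  · intro x
    rw [iterateFrobeniusEquiv_def, iterateFrobeniusEquiv_def, mul_pow, ← pow_mul, ← pow_add, ← pow_add,
      show c + i = j by omega, hall, hij']

end Cfsg.Agent.Suz2
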