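import Mathlib
import Cfsg.Agent.Lib.Suz2.Elementary
import Cfsg.Agent.Lib.Suz2.Quadratic
import Cfsg.Agent.Lib.Suz2.Graph
import Cfsg.Prelude.Def_LieRecognition

set_option autoImplicit false

namespace Cfsg.Agent.Suz2

universe u

section TypeA

variable {F : Type*} [Field F]

/-- The unitriangular matrix with parameters `x`, `y`. -/
noncomputable def typeAGL (φ : F →+* F) (x y : F) : Matrix.GeneralLinearGroup (Fin 3) F :=
  Matrix.GeneralLinearGroup.mk'' !![1, 0, 0; x, 1, 0; y, φ x, 1]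
    (by simp [Matrix.det_fin_three])

theorem typeAGL_coe (φ : F →+* F) (x y : F) :
    (typeAGL φ x y : Matrix (Fin 3) (Fin 3) F) = !![1, 0, 0; x, 1, 0; y, φ x, 1] := rfl

theorem typeAGL_mul (φ : F →+* F) (a b c e : F) :
    typeAGL φ a b * typeAGL φ c e = typeAGL φ (a + c) (b + e + φ a * c) := by
  apply Units.ext
  rw [Units.val_mul, typeAGL_coe, typeAGL_coe, typeAGL_coe]
  ext i j
  fin_cases i <;> fin_cases j <;>
    simp [Matrix.mul_apply, Fin.sum_univ_three, map_add] <;> ring

theorem typeAGL_mem (φ : F →+* F) (x y : F) : typeAGL φ x y ∈ Cfsg.suzukiTypeA F φ :=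
  Subgroup.subset_closure ⟨x, y, typeAGL_coe φ x y⟩

theorem typeAGL_zero (φ : F →+* F) : typeAGL φ 0 0 = 1 := by
  apply Units.ext
  rw [typeAGL_coe, Units.val_one, map_zero]
  ext i j
  fin_cases i <;> fin_cases j <;> simp

theorem mem_typeA_iff (φ : F →+* F) (g : Matrix.GeneralLinearGroup (Fin 3) F) :
    g ∈ Cfsg.suzukiTypeA F φ ↔ ∃ x y, g = typeAGL φ x y := by
  constructor
  · intro h
    induction h using Subgroup.closure_induction with
    | mem g hg => obtain ⟨x, y, h⟩ := hg; exact ⟨x, y, Units.ext h⟩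
    | one => exact ⟨0, 0, (typeAGL_zero φ).symm⟩
    | mul a b _ _ ha hb =>
      obtain ⟨x, y, rfl⟩ := ha
      obtain ⟨x', y', rfl⟩ := hb
      exact ⟨_, _, typeAGL_mul φ x y x' y'⟩
    | inv a _ ha =>
      obtain ⟨x, y, rfl⟩ := ha
      refine ⟨-x, -y + φ x * x, inv_eq_of_mul_eq_one_right ?_⟩
      rw [typeAGL_mul, ← typeAGL_zero φ]
      congr 1 <;> ring
  · rintro ⟨x, y, rfl⟩
    exact typeAGL_mem φ x y

theorem typeAGL_inj (φ : F →+* F) {x y x' y' : F} (h : typeAGL φ x y = typeAGL φ x' y') :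
    x = x' ∧ y = y' := by
  have h' := congrArg (fun g : Matrix.GeneralLinearGroup (Fin 3) F => (g : Matrix (Fin 3) (Fin 3) F)) h
  simp only [typeAGL_coe] at h'
  have hx := congrArg (fun M : Matrix (Fin 3) (Fin 3) F => M 1 0) h'
  have hy := congrArg (fun M : Matrix (Fin 3) (Fin 3) F => M 2 0) h'
  exact ⟨by simpa using hx, by simpa using hy⟩

end TypeA

variable {P : Type u} [Group P] [Finite P]

theorem order_sq (hp : IsPGroup 2 P) (hna : ∃ x y : P, x * y ≠ y * x) (d : Data P)
    (hcard : Nat.card P = Nat.card (Subgroup.center P) ^ 2) :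
    ∃ (F : Type) (_ : Field F) (_ : Fintype F) (φ : F ≃+* F),
      Fintype.card F = Nat.card (Subgroup.center P) ∧ φ ≠ RingEquiv.refl F ∧ Odd (orderOf φ) ∧
      Nonempty (P ≃* Cfsg.suzukiTypeA F (φ : F →+* F)) := by
  classical
  set Z := Subgroup.center P with hZdef
  have hsq1 := center_sq_eq_one hp hna d
  have hinvZ : ∀ x : P, x * x = 1 → x ∈ Z := fun x h => (d.invol_mem_omega h).1
  have hcomZ : ∀ z ∈ Z, ∀ g : P, g * z = z * g := fun z hz g => Subgroup.mem_center_iff.mp hz g
  let π : P →* P ⧸ Z := QuotientGroup.mk' Z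
  have hπ : ∀ x, π x = 1 ↔ x ∈ Z := fun x => QuotientGroup.eq_one_iff x
  set X : Subgroup P := Subgroup.comap π (omegaCenter (P ⧸ Z)) with hXdef
  -- an element outside the centre, squaring into it and central modulo it
  obtain ⟨x0, hx0X, hx0Z⟩ : ∃ x0 ∈ X, x0 ∉ Z := by
    have hQp : IsPGroup 2 (P ⧸ Z) := hp.to_quotient Z
    have hZtop : Z ≠ ⊤ := by
      obtain ⟨a, b, hab⟩ := hna
      exact fun h => hab (hcomZ b (h ▸ Subgroup.mem_top b) a)
    have hQnt : Nontrivial (P ⧸ Z) := QuotientGroup.nontrivial_iff.mpr hZtop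
    have : Fact (Nat.Prime 2) := ⟨Nat.prime_two⟩
    have hc : Nontrivial (Subgroup.center (P ⧸ Z)) := hQp.center_nontrivial
    obtain ⟨n, hn⟩ := IsPGroup.iff_card.mp (hQp.to_subgroup (Subgroup.center (P ⧸ Z)))
    have h1 : 1 < Nat.card (Subgroup.center (P ⧸ Z)) := Finite.one_lt_card
    have hdvd : 2 ∣ Nat.card (Subgroup.center (P ⧸ Z)) := by
      rcases Nat.eq_zero_or_pos n with h0 | h0
      · rw [hn, h0, pow_zero] at h1; omega
      · rw [hn]; exact dvd_pow_self 2 h0.ne'
    obtain ⟨⟨v, hv⟩, hord⟩ := exists_prime_orderOf_dvd_card' 2 hdvd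
    obtain ⟨x, rfl⟩ := QuotientGroup.mk'_surjective Z v
    rw [← Subgroup.orderOf_coe] at hord
    refine ⟨x, ⟨hv, ?_⟩, fun h => ?_⟩
    · rw [← pow_two, ← hord]; exact pow_orderOf_eq_one _
    · simp only at hord
      rw [show QuotientGroup.mk' Z x = 1 from (hπ x).mpr h, orderOf_one] at hord
      omega
  have hz0sq : x0 * x0 ∈ Z := by rw [← hπ, map_mul]; exact hx0X.2
  have hz0ne : x0 * x0 ≠ 1 := fun h => hx0Z (hinvZ x0 h)
  have hz02 : (x0 * x0) * (x0 * x0) = 1 := hsq1 _ hz0sq
  have hkZ : ∀ (k : d.K) (x : P), (k : MulAut P) x ∈ Z ↔ x ∈ Z := by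
    intro k x
    refine ⟨fun h => ?_, map_mem_center _⟩
    have := map_mem_center ((k : MulAut P).symm) h
    rwa [MulEquiv.symm_apply_apply] at this
  have hsqcoset : ∀ x, ∀ z ∈ Z, x * z * (x * z) = x * x := by
    intro x z hz
    calc x * z * (x * z) = x * (z * x) * z := by group
      _ = x * (x * z) * z := by rw [hcomZ z hz x]
      _ = x * x * (z * z) := by group
      _ = x * x := by rw [hsq1 z hz, mul_one]
  let W := omegaCenter P
  let _ : CommGroup W :=
    { (inferInstance : Group W) with mul_comm := fun a b => Subtype.ext (hcomZ _ b.2.1 a) }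
  have hW2 : ∀ w : W, w * w = 1 := fun w => Subtype.ext w.2.2
  let w0 : W := ⟨x0 * x0, hz0sq, hz02⟩
  have hw0 : w0 ≠ 1 := fun h => hz0ne (congrArg Subtype.val h)
  have hregW : ∀ w : W, w ≠ 1 → ∃! k : d.K, k • w0 = w := by
    intro w hw
    obtain ⟨k, hk, hu⟩ := d.regular (x0 * x0) w hz0ne hz02 (fun h => hw (Subtype.ext h)) w.2.2
    exact ⟨k, Subtype.ext hk, fun l hl => hu l (congrArg Subtype.val hl)⟩
  have hWZ : W = Z := by
    apply le_antisymm (fun x hx => hx.1)
    exact fun x hx => ⟨hx, hsq1 x hx⟩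
  have hcardQ : Nat.card (P ⧸ Z) = Nat.card Z := by
    have h := Subgroup.card_eq_card_quotient_mul_card_subgroup Z
    rw [hcard, pow_two] at h
    exact (Nat.eq_of_mul_eq_mul_right Nat.card_pos h).symm
  -- the orbit of x0 fills P/Z
  let orb : Option d.K → P ⧸ Z := fun o => o.elim 1 (fun k => π ((k : MulAut P) x0))
  have horbinj : Function.Injective orb := by
    rintro (_ | k) (_ | l) h
    · rfl
    · exact absurd ((hkZ l x0).mp ((hπ _).mp h.symm)) hx0Z
    · exact absurd ((hkZ k x0).mp ((hπ _).mp h)) hx0Z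
    · have hz : ((k : MulAut P) x0)⁻¹ * (l : MulAut P) x0 ∈ Z := by
        rw [← hπ, map_mul, map_inv]; exact inv_mul_eq_one.mpr h
      have := hsqcoset ((k : MulAut P) x0) _ hz
      rw [mul_inv_cancel_left, ← map_mul, ← map_mul] at this
      obtain ⟨m, -, hu⟩ := d.regular (x0 * x0) ((k : MulAut P) (x0 * x0)) hz0ne hz02
        (fun h => hz0ne ((k : MulAut P).injective (by rw [h, map_one]))) (by rw [← map_mul, hz02, map_one])
      exact congrArg some ((hu k rfl).trans (hu l this).symm)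
  let ek : Option d.K → W := fun o => o.elim 1 (fun k => k • w0)
  have hekbij : Function.Bijective ek := by
    constructor
    · rintro (_ | k) (_ | l) h
      · rfl
      · exact absurd (smul_left_cancel l (h.symm.trans (smul_one l).symm)) hw0
      · exact absurd (smul_left_cancel k (h.trans (smul_one k).symm)) hw0
      · obtain ⟨m, -, hu⟩ := hregW (k • w0) (fun h' => hw0 (smul_left_cancel k (h'.trans (smul_one k).symm)))
        exact congrArg some ((hu k rfl).trans (hu l h.symm).symm)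
    · intro w
      by_cases hw : w = 1
      · exact ⟨none, hw.symm⟩
      · obtain ⟨k, hk, -⟩ := hregW w hw
        exact ⟨some k, hk⟩
  have horb : Function.Bijective orb := by
    refine (Nat.bijective_iff_injective_and_card orb).mpr ⟨horbinj, ?_⟩
    rw [hcardQ, ← hWZ]
    exact Nat.card_congr (Equiv.ofBijective ek hekbij)
  have hXtop : ∀ x, x ∈ X := by
    intro x
    obtain ⟨o, ho⟩ := horb.2 (π x)
    show π x ∈ omegaCenter (P ⧸ Z)
    rw [← ho]
    rcases o with _ | k
    · exact one_mem _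
    · show π ((k : MulAut P) x0) ∈ omegaCenter (P ⧸ Z)
      obtain ⟨h1, h2⟩ := hx0X
      refine ⟨?_, ?_⟩
      · rw [Subgroup.mem_center_iff] at h1 ⊢
        intro g
        obtain ⟨g, rfl⟩ := QuotientGroup.mk'_surjective Z g
        have h := h1 (π ((k : MulAut P).symm g))
        rw [← map_mul, ← map_mul] at h ⊢
        rw [QuotientGroup.mk'_eq_mk'] at h ⊢
        obtain ⟨z, hz, hz'⟩ := h
        refine ⟨(k : MulAut P) z, map_mem_center _ hz, ?_⟩
        have := congrArg (k : MulAut P) hz'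
        rwa [map_mul, map_mul, map_mul, MulEquiv.apply_symm_apply] at this
      · rw [← map_mul, hπ, ← map_mul, hkZ]
        exact hz0sq
  have hsqZ : ∀ x : P, x * x ∈ Z := fun x => by rw [← hπ, map_mul]; exact (hXtop x).2
  let V := P ⧸ Z
  have hVc : ∀ a b : V, a * b = b * a := by
    intro a b
    obtain ⟨x, rfl⟩ := QuotientGroup.mk'_surjective Z b
    exact Subgroup.mem_center_iff.mp (hXtop x).1 a
  let _ : CommGroup V := { (inferInstance : Group V) with mul_comm := hVc }
  have hV2 : ∀ v : V, v * v = 1 := by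
    intro v
    obtain ⟨x, rfl⟩ := QuotientGroup.mk'_surjective Z v
    exact (hXtop x).2
  have hle : ∀ k : d.K, Z ≤ Subgroup.comap ((k : MulAut P).toMonoidHom) Z :=
    fun k x hx => map_mem_center _ hx
  let _ : MulDistribMulAction d.K V :=
    { smul := fun k => QuotientGroup.map Z Z ((k : MulAut P).toMonoidHom) (hle k)
      one_smul := fun v => by induction v using QuotientGroup.induction_on; rfl
      mul_smul := fun a b v => by induction v using QuotientGroup.induction_on; rfl
      smul_mul := fun k a b => map_mul (QuotientGroup.map Z Z ((k : MulAut P).toMonoidHom) (hle k)) a b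
      smul_one := fun k => map_one (QuotientGroup.map Z Z ((k : MulAut P).toMonoidHom) (hle k)) }
  have hπk : ∀ (k : d.K) (x : P), π ((k : MulAut P) x) = k • (π x : V) := fun k x => rfl
  let v0 : V := π x0
  have hv0 : v0 ≠ 1 := fun h => hx0Z ((hπ _).mp h)
  have hregV : ∀ v : V, v ≠ 1 → ∃! k : d.K, k • v0 = v := by
    intro v hv
    obtain ⟨o, ho⟩ := horb.2 v
    rcases o with _ | k
    · exact absurd ho.symm hv
    · refine ⟨k, ho, fun l hl => ?_⟩
      exact Option.some_injective _ (horb.1 (show orb (some l) = orb (some k) from hl.trans ho.symm))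
  obtain ⟨F1, _, _, _, e1, χ1, hadd1, he1, heχ1, hsurj1⟩ := exists_field hV2 v0 hv0 hregV
  obtain ⟨F2, _, _, _, e2, χ2, hadd2, he2, heχ2, hsurj2⟩ := exists_field hW2 w0 hw0 hregW
  have h01 : e1 0 = 1 := by have := hadd1 0 0; rw [add_zero] at this; exact left_eq_mul.mp this
  have h02 : e2 0 = 1 := by have := hadd2 0 0; rw [add_zero] at this; exact left_eq_mul.mp this
  have hcard2 : Fintype.card F2 = Nat.card Z := by
    rw [← Nat.card_eq_fintype_card, Nat.card_congr e2, ← hWZ]
  have hcard21 : Fintype.card F2 = Fintype.card F1 := by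
    rw [hcard2, ← hcardQ, ← Nat.card_eq_fintype_card, Nat.card_congr e1]
  let σ : F2 ≃+* F1 := FiniteField.ringEquivOfCardEq hcard21
  let η : P → F1 := fun x => e1.symm (π x)
  have hηeq : ∀ x, e1 (η x) = π x := fun x => e1.apply_symm_apply _
  have hη : ∀ x y, η (x * y) = η x + η y := fun x y => e1.injective (by
    rw [hadd1, hηeq, hηeq, hηeq]; exact map_mul π x y)
  have hηs : Function.Surjective η := by
    intro a
    obtain ⟨x, hx⟩ := QuotientGroup.mk'_surjective Z (e1 a)
    exact ⟨x, e1.injective (by rw [hηeq]; exact hx)⟩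
  have hη0 : ∀ x, η x = 0 ↔ x ∈ Z := by
    intro x
    rw [← hπ, ← hηeq x]
    exact ⟨fun h => by rw [h, h01], fun h => e1.injective (h.trans h01.symm)⟩
  let β : P → F1 := fun x => if h : x ∈ W then σ (e2.symm ⟨x, h⟩) else 0
  have hβv : ∀ x, ∀ h : x ∈ W, β x = σ (e2.symm ⟨x, h⟩) := fun x h => by simp only [β, dif_pos h]
  have hmemW : ∀ x ∈ Z, x ∈ W := fun x hx => by rw [hWZ]; exact hx
  have hβ : ∀ x y, x ∈ Z → y ∈ Z → β (x * y) = β x + β y := by
    intro x y hx hy
    rw [hβv x (hmemW x hx), hβv y (hmemW y hy), hβv _ (hmemW _ (mul_mem hx hy)), ← map_add]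
    congr 1
    apply e2.injective
    rw [hadd2, Equiv.apply_symm_apply, Equiv.apply_symm_apply, Equiv.apply_symm_apply]
    rfl
  have hβs : ∀ b, ∃ x, x ∈ Z ∧ β x = b := by
    intro b
    refine ⟨(e2 (σ.symm b) : W), (e2 (σ.symm b)).2.1, ?_⟩
    rw [hβv _ (e2 (σ.symm b)).2]
    simp
  have hβi : ∀ x, x ∈ Z → β x = 0 → x = 1 := by
    intro x hx h
    rw [hβv x (hmemW x hx), map_eq_zero_iff _ σ.injective] at h
    have h' := congrArg e2 h
    rw [Equiv.apply_symm_apply, h02] at h'
    exact congrArg Subtype.val h'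
  have hsqwd : ∀ x y, η x = η y → x * x = y * y := by
    intro x y h
    have hmem : x⁻¹ * y ∈ Z := by
      rw [← hπ, map_mul, map_inv, ← hηeq x, ← hηeq y, h, inv_mul_cancel]
    have := hsqcoset x _ hmem
    rw [mul_inv_cancel_left] at this
    exact this.symm
  choose lift hlift using hηs
  let s : F1 → F1 := fun a => β (lift a * lift a)
  have hs : ∀ x, β (x * x) = s (η x) := fun x => congrArg β (hsqwd x (lift (η x)) (hlift _).symm)
  have hs0 : s 0 = 0 := by
    have h1 : η 1 = 0 := (hη0 1).mpr (one_mem Z)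
    have h2 := hs 1
    rw [h1, mul_one] at h2
    rw [← h2]
    have := hβ 1 1 (one_mem Z) (one_mem Z)
    rw [mul_one] at this
    exact left_eq_add.mp this
  have hsχ : ∀ k, s (χ1 k) = σ (χ2 k) := by
    intro k
    have hk : η ((k : MulAut P) x0) = χ1 k := e1.injective (by
      rw [hηeq, hπk]
      have := heχ1 k 1
      rw [mul_one, he1] at this
      exact this.symm)
    rw [← hk, ← hs]
    have h2 : (k : MulAut P) x0 * (k : MulAut P) x0 = ((k • w0 : W) : P) := by
      rw [← map_mul]; rfl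
    rw [h2, hβv _ (k • w0).2]
    congr 1
    apply e2.injective
    rw [Equiv.apply_symm_apply]
    have := heχ2 k 1
    rw [mul_one, he2] at this
    exact this.symm
  have hs1 : s 1 = 1 := by
    have h := hsχ 1
    rwa [map_one, map_one, map_one] at h
  have hmul : ∀ a b, s (a * b) = s a * s b := by
    intro a b
    by_cases ha : a = 0
    · rw [ha, zero_mul, hs0, zero_mul]
    by_cases hb : b = 0
    · rw [hb, mul_zero, hs0, mul_zero]
    obtain ⟨k, rfl⟩ := hsurj1 a ha
    obtain ⟨l, rfl⟩ := hsurj1 b hb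
    rw [← map_mul, hsχ, hsχ, hsχ, map_mul, map_mul]
  have hinj : Function.Injective s := by
    have h0 : ∀ a, s a = 0 → a = 0 := by
      intro a h
      have h1 := hβi _ (hsqZ _) h
      rw [← hlift a, hη0]
      exact hinvZ _ h1
    intro a b h
    by_cases hb : b = 0
    · rw [hb, hs0] at h; rw [hb]; exact h0 a h
    have hsb : s b ≠ 0 := fun h' => hb (h0 b h')
    obtain ⟨k, hk⟩ := hsurj1 b hb
    by_cases ha : a = 0
    · rw [ha, hs0] at h; exact absurd h.symm hsb
    obtain ⟨l, hl⟩ := hsurj1 a ha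
    rw [← hk, ← hl, hsχ, hsχ] at h
    have h' := σ.injective h
    have e : l • w0 = k • w0 := by
      rw [← he2, ← heχ2, ← heχ2, h']
    obtain ⟨m, -, hu⟩ := hregW (k • w0) (fun h'' => hw0 (smul_left_cancel k (h''.trans (smul_one k).symm)))
    rw [← hl, ← hk, hu l e, hu k rfl]
  -- the polarisation
  let cm : P → P → P := fun x y => x⁻¹ * y⁻¹ * x * y
  have hcm : ∀ x y, cm x y ∈ Z := by
    intro x y
    rw [← hπ]
    simp only [cm, map_mul, map_inv]
    rw [hVc (π x)⁻¹ (π y)⁻¹, inv_mul_cancel_right, inv_mul_cancel]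
  have hsum : ∀ x y, s (η x + η y) = s (η x) + s (η y) + β (cm y x) := by
    intro x y
    rw [← hη, ← hs, ← hs, ← hs]
    have hc := hcomZ _ (hcm y x) x
    have e : x * y * (x * y) = (x * x) * (y * y) * cm y x := by
      calc x * y * (x * y) = x * (x * y * cm y x) * y := by simp only [cm]; group
        _ = (x * x) * y * (cm y x * y) := by group
        _ = (x * x) * y * (y * cm y x) := by rw [hcomZ _ (hcm y x) y]
        _ = (x * x) * (y * y) * cm y x := by group
    rw [e, hβ _ _ (mul_mem (hsqZ x) (hsqZ y)) (hcm y x), hβ _ _ (hsqZ x) (hsqZ y)]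
  have hcmr : ∀ u x y, cm (x * y) u = cm x u * cm y u := by
    intro u x y
    have e : cm (x * y) u = y⁻¹ * cm x u * y * cm y u := by simp only [cm]; group
    rw [e, show y⁻¹ * cm x u * y = cm x u by
      rw [mul_assoc, ← hcomZ _ (hcm x u) y, inv_mul_cancel_left]]
  have hpol : ∀ a b, s (1 + (a + b)) + s 1 + s (a + b) =
      (s (1 + a) + s 1 + s a) + (s (1 + b) + s 1 + s b) := by
    intro a b
    have h1 := hsum (lift 1) (lift a)
    have h2 := hsum (lift 1) (lift b)
    have h3 := hsum (lift 1) (lift a * lift b)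
    rw [hlift, hlift] at h1 h2
    rw [hη, hlift, hlift, hlift, hcmr, hβ _ _ (hcm _ _) (hcm _ _)] at h3
    have two : (2 : F1) = 0 := CharTwo.two_eq_zero
    linear_combination h3 - h1 - h2 + (s (a + b) - s a - s b - s 1) * two
  have hnl : ∃ a b, s (a + b) ≠ s a + s b := by
    obtain ⟨x, y, hxy⟩ := hna
    refine ⟨η y, η x, fun h => hxy ?_⟩
    rw [hsum] at h
    have h1 : cm x y = 1 := hβi _ (hcm x y) (add_eq_left.mp h)
    have h2 : x * y = y * x * cm x y := by simp only [cm]; group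
    rw [h2, h1, mul_one]
  obtain ⟨φ, τ, hφne, hφodd, hsφ⟩ := quadratic_monoid_hom s hs0 hs1 hmul hinj hpol hnl
  refine ⟨F1, inferInstance, inferInstance, φ, hcard21 ▸ hcard2, hφne, hφodd, ?_⟩
  set G := Cfsg.suzukiTypeA F1 (φ : F1 →+* F1) with hG
  choose px py hpxy using fun g : G => (mem_typeA_iff (φ : F1 →+* F1) g.1).mp g.2
  have hprod : ∀ g h : G, px (g * h) = px g + px h ∧ py (g * h) = py g + py h + φ (px g) * px h := by
    intro g h
    have e := hpxy (g * h)
    rw [Subgroup.coe_mul, hpxy g, hpxy h, typeAGL_mul] at e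
    obtain ⟨e1', e2'⟩ := typeAGL_inj _ e
    exact ⟨e1'.symm, e2'.symm⟩
  have hp1 : px 1 = 0 ∧ py 1 = 0 := by
    have e := (hpxy 1).symm.trans (typeAGL_zero (φ : F1 →+* F1)).symm
    exact typeAGL_inj _ e
  have hsurjG : ∀ a b, ∃ g : G, px g = a ∧ py g = b := by
    intro a b
    refine ⟨⟨_, typeAGL_mem (φ : F1 →+* F1) a b⟩, ?_⟩
    have e := hpxy ⟨_, typeAGL_mem (φ : F1 →+* F1) a b⟩
    obtain ⟨e1', e2'⟩ := typeAGL_inj _ e
    exact ⟨e1'.symm, e2'.symm⟩
  refine iso_of_sq η hη (fun a => ⟨lift a, hlift a⟩) px (fun g h => (hprod g h).1)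
    (fun a => (hsurjG a 0).imp fun g hg => hg.1) (fun x hx => (hη0 x).mp hx) ?_ (fun x => τ.symm (β x)) ?_ ?_ ?_
    py ?_ ?_ ?_ (fun a => a * φ a) ?_ ?_
  · intro g hg
    rw [Subgroup.mem_center_iff]
    intro h
    apply Subtype.ext
    rw [Subgroup.coe_mul, Subgroup.coe_mul, hpxy g, hpxy h, typeAGL_mul, typeAGL_mul, hg]
    simp [add_comm]
  · intro x y hx hy
    rw [hβ _ _ ((hη0 x).mp hx) ((hη0 y).mp hy), map_add]
  · intro b
    obtain ⟨x, hx, hx'⟩ := hβs (τ b)
    exact ⟨x, (hη0 x).mpr hx, by rw [hx', RingEquiv.symm_apply_apply]⟩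
  · intro x hx h
    exact hβi x ((hη0 x).mp hx) ((map_eq_zero_iff _ τ.symm.injective).mp h)
  · intro g h hg _
    rw [(hprod g h).2, hg, map_zero, zero_mul, add_zero]
  · intro b
    exact hsurjG 0 b
  · intro g hg h
    apply Subtype.ext
    rw [hpxy g, hg, h, typeAGL_zero]; rfl
  · intro x
    exact ⟨(hη0 _).mpr (hsqZ x), by rw [hs, hsφ, RingEquiv.symm_apply_apply]⟩
  · intro g
    obtain ⟨e1', e2'⟩ := hprod g g
    rw [e1', e2', CharTwo.add_self_eq_zero, CharTwo.add_self_eq_zero, zero_add]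
    exact ⟨rfl, mul_comm _ _⟩

end Cfsg.Agent.Suz2
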